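import Cfsg.Agent.ClassicalGeometry.PolePrime
import Cfsg.Agent.ClassicalGeometry.PSL2ElemOrder
import Cfsg.Agent.ClassicalGeometry.PoleBridge
import Cfsg.Agent.ClassicalGeometry.PoleCases
import Cfsg.Agent.ClassicalGeometry.DicksonWild
import Cfsg.Agent.S0799

/-!
# Dickson's list for subgroups of `PSL₂(q)`, with a fixed point in the Borel case
-/

set_option autoImplicit false
set_option linter.unusedSectionVars false
set_option linter.unusedSimpArgs false
set_option linter.unusedVariables false

namespace Cfsg.Agent.H928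

open Matrix MulAction OnePoint
open Cfsg.Agent.ClassicalGeometry.PoleCount Cfsg.Agent.ClassicalGeometry.PoleCount.Pole
open Cfsg.Agent.ClassicalGeometry.PoleBridge
open Cfsg.Agent.ClassicalGeometry.PoleCases Cfsg.Agent.ClassicalGeometry.DicksonWild
open Cfsg.Agent.ClassicalGeometry.PSL2Basic Cfsg.Agent.ClassicalGeometry.PSL2ElemOrder
open Cfsg.Agent.Lib.Mobius

open Classical in
/-- Dickson's list; in the Borel case the group has a fixed point on the projective line over the closure. -/
theorem dickson_fix {F : Type*} [Field F] [Fintype F] {q : ℕ} (hF : Fintype.card F = q) (p : ℕ) [Fact p.Prime]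
    [CharP F p] (H : Subgroup (Matrix.ProjectiveSpecialLinearGroup (Fin 2) F)) :
    (IsCyclic H ∨ ∃ k : ℕ, Nonempty (H ≃* DihedralGroup k)) ∨
    (∃ x : OnePoint (AlgebraicClosure F), ∀ g ∈ H,
      pslPerm (AlgebraicClosure F) (pslMap (algebraMap F (AlgebraicClosure F)) g) x = x) ∨
    Nonempty (H ≃* alternatingGroup (Fin 4)) ∨ Nonempty (H ≃* Equiv.Perm (Fin 4)) ∨
    Nonempty (H ≃* alternatingGroup (Fin 5)) ∨ (∃ (K : Type) (_ : Field K) (_ : Fintype K) (m : ℕ),
      Fintype.card K ^ m = q ∧ (Nonempty (H ≃* Matrix.ProjectiveSpecialLinearGroup (Fin 2) K) ∨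
        Nonempty (H ≃* Matrix.ProjGenLinGroup (Fin 2) K))) := by
  let K := AlgebraicClosure F
  haveI : CharP K p := charP_of_injective_algebraMap (algebraMap F K).injective p
  let ι : F →+* K := algebraMap F K
  let φ : H →* Matrix.ProjectiveSpecialLinearGroup (Fin 2) K := (pslMap ι).comp H.subtype
  have hφ : Function.Injective φ := (pslMap_injective ι).comp H.subtype_injective
  letI := act φ
  have pole : Pole p K H (OnePoint K) := pole_of_injective p φ hφ
  have hact : ∀ (g : H) (x : OnePoint K), g • x = pslPerm K (pslMap ι (g : _)) x := fun _ _ => rfl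
  by_cases hp : p ∣ Nat.card H
  · -- the wild case
    obtain ⟨u, hu⟩ := exists_prime_orderOf_dvd_card' p hp
    have hup : u ^ p = 1 := by rw [← hu]; exact pow_orderOf_eq_one u
    have hu1 : u ≠ 1 := by
      rintro rfl
      rw [orderOf_one] at hu
      exact (Fact.out : p.Prime).one_lt.ne hu
    obtain ⟨x₀, hx₀⟩ := pole.one u hu1 hup
    have hx₀' : x₀ ∈ Op p H (OnePoint K) := ⟨u, hu1, hup, (hx₀ x₀).mpr rfl⟩
    by_cases hone : ∀ x ∈ Op p H (OnePoint K), x = x₀
    · -- the Sylow subgroup is normal
      right; left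
      refine ⟨x₀, fun g hg => ?_⟩
      have := hone _ (smul_mem_Op (⟨g, hg⟩ : H) hx₀')
      exact this
    · push Not at hone
      obtain ⟨x₁, hx₁, hne⟩ := hone
      rcases wild_cases pole hx₀' hx₁ (Ne.symm hne) with htr | ⟨k, hk0, hk, hd⟩ | hA5
      · -- transfer to the projective line over `F`
        right; right; right; right; right
        have hrat : ∀ x ∈ Op p H (OnePoint K), ∃ x' ∈ OpF p H, OnePoint.map ι x' = x := by
          rintro x ⟨v, hv1, hvp, hvx⟩
          have hvp' : (v : Matrix.ProjectiveSpecialLinearGroup (Fin 2) F) ^ p = 1 :=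
            congrArg Subtype.val hvp
          obtain ⟨x', hx'⟩ := Cfsg.Agent.S0799.exists_fix_rational p _ hvp'
          refine ⟨x', ⟨v, v.2, fun h => hv1 (Subtype.ext h), hvp', hx'⟩, ?_⟩
          obtain ⟨y, hy⟩ := pole.one v hv1 hvp
          rw [(hy x).mp hvx]
          apply (hy _).mp
          rw [hact, Cfsg.Agent.S0799.pslPerm_map, hx']
        have hOp : ∀ x ∈ OpF p H, OnePoint.map ι x ∈ Op p H (OnePoint K) := by
          rintro x ⟨v, hvH, hv1, hvp, hvx⟩
          refine ⟨⟨v, hvH⟩, fun h => hv1 (congrArg Subtype.val h), Subtype.ext hvp, ?_⟩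
          rw [hact, Cfsg.Agent.S0799.pslPerm_map, hvx]
        have hTr : Trans p H := by
          intro x hx y hy z hz hyx hzx
          obtain ⟨g, hgp, hgx, hgy⟩ := htr _ (hOp x hx) _ (hOp y hy) _ (hOp z hz)
            (fun h => hyx (Cfsg.Agent.S0799.map_injective ι h)) (fun h => hzx (Cfsg.Agent.S0799.map_injective ι h))
          refine ⟨g, g.2, congrArg Subtype.val hgp, ?_, ?_⟩
          · apply Cfsg.Agent.S0799.map_injective ι
            rw [← Cfsg.Agent.S0799.pslPerm_map, ← hact, hgx]
          · apply Cfsg.Agent.S0799.map_injective ι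
            rw [← Cfsg.Agent.S0799.pslPerm_map, ← hact, hgy]
        obtain ⟨a, ha, hax⟩ := hrat x₀ hx₀'
        obtain ⟨b, hb, hbx⟩ := hrat x₁ hx₁
        have hab : a ≠ b := by
          rintro rfl
          exact hne (hbx.symm.trans hax)
        obtain ⟨L, i1, i2, m, hm, h3⟩ := main_trans p H ha hb hab hTr
        exact ⟨L, i1, i2, m, hm.trans hF, h3⟩
      · exact Or.inl (Or.inr ⟨k, hd⟩)
      · exact Or.inr (Or.inr (Or.inr (Or.inr (Or.inl hA5))))
  · -- the tame case
    have hpow : ∀ g : H, g ≠ 1 → g ^ p ≠ 1 := by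
      intro g hg hgp
      apply hp
      rw [← orderOf_eq_prime hgp hg]
      exact orderOf_dvd_natCard g
    have hcyc : ∀ x : OnePoint K, IsCyclic (stabilizer H x) := by
      intro x
      obtain ⟨χ, hχ⟩ := pole.chi x
      have hinj : Function.Injective χ := by
        rw [injective_iff_map_eq_one]
        intro g hg
        by_contra hne
        have h1 := (hχ g).mp hg
        exact hpow g (fun h => hne (Subtype.ext h)) (congrArg Subtype.val h1)
      have hcoe : Function.Injective (Units.coeHom K) := Units.val_injective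
      exact isCyclic_of_injective_ringHom ((Units.coeHom K).comp χ) (hcoe.comp hinj)
    rcases Cfsg.Agent.ClassicalGeometry.PolePrime.pole_prime
      (fun (g : H) hg => pole.two g (hpow g hg)) hcyc with h1 | ⟨k, hk, h1⟩ | h1 | h1 | h1
    · exact Or.inl (Or.inl h1)
    · exact Or.inl (Or.inr ⟨k, h1⟩)
    · exact Or.inr (Or.inr (Or.inl h1))
    · exact Or.inr (Or.inr (Or.inr (Or.inl h1)))
    · exact Or.inr (Or.inr (Or.inr (Or.inr (Or.inl h1))))

end Cfsg.Agent.H928
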