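import Mathlib

/-!
# Orthogonal frames I: monomial isometries, sign changes, 3-cycles

`V = ι → F` with the standard dot product, `char F ≠ 2`.
-/

set_option autoImplicit false
set_option linter.unusedSectionVars false
set_option linter.unusedSimpArgs false
set_option linter.unusedVariables false

namespace Cfsg.Agent.H928

open Matrix

variable {ι : Type*} [Fintype ι] [DecidableEq ι] {F : Type*} [Field F]

/-- standard basis vector -/
abbrev ee (F : Type*) [Field F] (i : ι) : ι → F := Pi.single i (1 : F)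

theorem dot_ee (x : ι → F) (i : ι) : x ⬝ᵥ ee F i = x i := by
  simp [ee]

theorem ee_dot (x : ι → F) (i : ι) : ee F i ⬝ᵥ x = x i := by
  simp [ee]

theorem ee_ne_zero (i : ι) : (ee F i : ι → F) ≠ 0 := by
  intro h
  have := congrFun h i
  simp [ee] at this

/-- isometry of the dot product -/
def IsIso (g : (ι → F) ≃ₗ[F] (ι → F)) : Prop := ∀ x y, g x ⬝ᵥ g y = x ⬝ᵥ y

/-- monomial (with signs): permutes the coordinate vectors up to sign -/
def Mono (g : (ι → F) ≃ₗ[F] (ι → F)) : Prop :=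
  ∃ σ : Equiv.Perm ι, ∀ i, g (ee F i) = ee F (σ i) ∨ g (ee F i) = - ee F (σ i)

theorem IsIso.one : IsIso (1 : (ι → F) ≃ₗ[F] (ι → F)) := fun _ _ => rfl

theorem IsIso.mul {g h : (ι → F) ≃ₗ[F] (ι → F)} (hg : IsIso g) (hh : IsIso h) : IsIso (g * h) :=
  fun x y => by
    rw [LinearEquiv.mul_apply, LinearEquiv.mul_apply, hg, hh]

theorem IsIso.inv {g : (ι → F) ≃ₗ[F] (ι → F)} (hg : IsIso g) : IsIso g⁻¹ := fun x y => by
  have h := hg (g⁻¹ x) (g⁻¹ y)
  rw [← LinearEquiv.mul_apply, ← LinearEquiv.mul_apply, mul_inv_cancel] at h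
  exact h.symm

theorem ee_inj_or {i j : ι} (h2 : (2 : F) ≠ 0) (h : (ee F i : ι → F) = ee F j ∨ (ee F i : ι → F) = - ee F j) :
    i = j := by
  by_contra hij
  rcases h with h | h
  · have := congrFun h i
    simp [ee, Pi.single_apply, hij] at this
  · have := congrFun h i
    simp [ee, Pi.single_apply, hij] at this

theorem mono_of_forall (h2 : (2 : F) ≠ 0) {g : (ι → F) ≃ₗ[F] (ι → F)}
    (h : ∀ i, ∃ j, g (ee F i) = ee F j ∨ g (ee F i) = - ee F j) : Mono g := by
  choose f hf using h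
  have hinj : Function.Injective f := by
    intro a b hab
    have ha := hf a
    have hb := hf b
    rw [hab] at ha
    apply ee_inj_or h2 (F := F)
    rcases ha with ha | ha <;> rcases hb with hb | hb
    · left; apply g.injective; rw [ha, hb]
    · right; apply g.injective; rw [map_neg, ha, hb, neg_neg]
    · right; apply g.injective; rw [map_neg, ha, hb]
    · left; apply g.injective; rw [ha, hb]
  exact ⟨Equiv.ofBijective f ((Finite.injective_iff_bijective).1 hinj), hf⟩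

theorem Mono.mul {g h : (ι → F) ≃ₗ[F] (ι → F)} (hg : Mono g) (hh : Mono h) : Mono (g * h) := by
  obtain ⟨σ, hσ⟩ := hg
  obtain ⟨τ, hτ⟩ := hh
  refine ⟨σ * τ, fun i => ?_⟩
  rw [LinearEquiv.mul_apply, Equiv.Perm.mul_apply]
  rcases hτ i with h | h <;> rcases hσ (τ i) with h' | h' <;> rw [h] <;> simp [h']

theorem Mono.one : Mono (1 : (ι → F) ≃ₗ[F] (ι → F)) := ⟨1, fun _ => Or.inl rfl⟩

theorem Mono.inv {g : (ι → F) ≃ₗ[F] (ι → F)} (hg : Mono g) : Mono g⁻¹ := by
  obtain ⟨σ, hσ⟩ := hg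
  refine ⟨σ⁻¹, fun i => ?_⟩
  have h := hσ (σ⁻¹ i)
  rw [← Equiv.Perm.mul_apply, mul_inv_cancel, Equiv.Perm.one_apply] at h
  rcases h with h | h
  · left
    rw [← h, ← LinearEquiv.mul_apply, inv_mul_cancel]; rfl
  · right
    have : ee F i = g (- ee F (σ⁻¹ i)) := by rw [map_neg, h, neg_neg]
    rw [this, ← LinearEquiv.mul_apply, inv_mul_cancel]; rfl

theorem mono_inv_iff {g : (ι → F) ≃ₗ[F] (ι → F)} : Mono g⁻¹ ↔ Mono g :=
  ⟨fun h => by simpa using h.inv, fun h => h.inv⟩

/-- sign change on the coordinates in `S` -/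
def sgL (S : Finset ι) : (ι → F) →ₗ[F] (ι → F) where
  toFun x := fun k => if k ∈ S then - x k else x k
  map_add' x y := by
    funext k; by_cases h : k ∈ S <;> simp [h]; ring
  map_smul' c x := by
    funext k; by_cases h : k ∈ S <;> simp [h]

def sg (F : Type*) [Field F] (S : Finset ι) : (ι → F) ≃ₗ[F] (ι → F) :=
  LinearEquiv.ofInvolutive (sgL S) (by
    intro x; funext k; by_cases h : k ∈ S <;> simp [sgL, h])

theorem sg_apply (S : Finset ι) (x : ι → F) (k : ι) : sg F S x k = if k ∈ S then - x k else x k := rfl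

theorem sg_ee_mem {S : Finset ι} {i : ι} (h : i ∈ S) : sg F S (ee F i) = - ee F i := by
  funext k
  rw [sg_apply]
  by_cases hk : k = i
  · subst hk; simp [h]
  · simp [ee, Pi.single_apply, hk]

theorem sg_ee_not_mem {S : Finset ι} {i : ι} (h : i ∉ S) : sg F S (ee F i) = ee F i := by
  funext k
  rw [sg_apply]
  by_cases hk : k = i
  · subst hk; simp [h]
  · simp [ee, Pi.single_apply, hk]

theorem sg_isIso (S : Finset ι) : IsIso (sg F S) := by
  intro x y
  unfold dotProduct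
  apply Finset.sum_congr rfl
  intro k _
  rw [sg_apply, sg_apply]
  by_cases h : k ∈ S <;> simp [h]

theorem sg_mono (S : Finset ι) : Mono (sg F S) := by
  refine ⟨1, fun i => ?_⟩
  by_cases h : i ∈ S
  · right; rw [sg_ee_mem h]; rfl
  · left; rw [sg_ee_not_mem h]; rfl

theorem sg_mul_self (S : Finset ι) : sg F S * sg F S = 1 := by
  apply LinearEquiv.ext
  intro x
  funext k
  rw [LinearEquiv.mul_apply, sg_apply, sg_apply]
  by_cases h : k ∈ S <;> simp [h]

theorem sg_inv (S : Finset ι) : (sg F S)⁻¹ = sg F S := by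
  rw [inv_eq_iff_mul_eq_one, sg_mul_self]

theorem sg_mul (S T : Finset ι) : sg F S * sg F T = sg F (symmDiff S T) := by
  apply LinearEquiv.ext
  intro x
  funext k
  rw [LinearEquiv.mul_apply, sg_apply, sg_apply, sg_apply]
  by_cases h : k ∈ S <;> by_cases h' : k ∈ T <;> simp [h, h', Finset.mem_symmDiff]

theorem sg_comm (S T : Finset ι) : sg F S * sg F T = sg F T * sg F S := by
  rw [sg_mul, sg_mul, symmDiff_comm]

/-- coordinate permutation -/
def pm (F : Type*) [Field F] (σ : Equiv.Perm ι) : (ι → F) ≃ₗ[F] (ι → F) :=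
  LinearEquiv.funCongrLeft F F σ⁻¹

theorem pm_apply (σ : Equiv.Perm ι) (x : ι → F) (k : ι) : pm F σ x k = x (σ⁻¹ k) := rfl

theorem pm_ee (σ : Equiv.Perm ι) (i : ι) : pm F σ (ee F i) = ee F (σ i) := by
  funext k
  rw [pm_apply]
  by_cases h : k = σ i
  · subst h; simp [ee]
  · have this : σ⁻¹ k ≠ i := by
      intro h'; apply h; rw [← h', ← Equiv.Perm.mul_apply, mul_inv_cancel, Equiv.Perm.one_apply]
    rw [ee, ee, Pi.single_apply, Pi.single_apply, if_neg this, if_neg h]

theorem pm_mul (σ τ : Equiv.Perm ι) : pm F (σ * τ) = pm F σ * pm F τ := by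
  apply LinearEquiv.ext
  intro x
  funext k
  rw [LinearEquiv.mul_apply, pm_apply, pm_apply, pm_apply, _root_.mul_inv_rev, Equiv.Perm.mul_apply]

theorem pm_isIso (σ : Equiv.Perm ι) : IsIso (pm F σ) := by
  intro x y
  unfold dotProduct
  exact Equiv.sum_comp σ⁻¹ (fun k => x k * y k)

theorem pm_mono (σ : Equiv.Perm ι) : Mono (pm F σ) := ⟨σ, fun i => Or.inl (pm_ee σ i)⟩

/-- the 3-cycle `i ↦ j ↦ k ↦ i` -/
def cyc (i j k : ι) : Equiv.Perm ι := Equiv.swap i j * Equiv.swap j k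

theorem cyc_apply_left {i j k : ι} (hij : i ≠ j) (hik : i ≠ k) : cyc i j k i = j := by
  rw [cyc, Equiv.Perm.mul_apply, Equiv.swap_apply_of_ne_of_ne hij hik, Equiv.swap_apply_left]

theorem cyc_apply_mid {i j k : ι} (hik : i ≠ k) (hjk : j ≠ k) : cyc i j k j = k := by
  rw [cyc, Equiv.Perm.mul_apply, Equiv.swap_apply_left, Equiv.swap_apply_of_ne_of_ne hik.symm hjk.symm]

theorem cyc_apply_right {i j k : ι} : cyc i j k k = i := by
  rw [cyc, Equiv.Perm.mul_apply, Equiv.swap_apply_right, Equiv.swap_apply_right]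

theorem cyc_apply_other {i j k l : ι} (h1 : l ≠ i) (h2 : l ≠ j) (h3 : l ≠ k) : cyc i j k l = l := by
  rw [cyc, Equiv.Perm.mul_apply, Equiv.swap_apply_of_ne_of_ne h2 h3, Equiv.swap_apply_of_ne_of_ne h1 h2]

/-- the linear 3-cycle `e_i ↦ e_j ↦ e_k ↦ e_i` -/
def c3 (F : Type*) [Field F] (i j k : ι) : (ι → F) ≃ₗ[F] (ι → F) := pm F (cyc i j k)

theorem c3_left {i j k : ι} (hij : i ≠ j) (hik : i ≠ k) : c3 F i j k (ee F i) = ee F j := by
  rw [c3, pm_ee, cyc_apply_left hij hik]

theorem c3_mid {i j k : ι} (hik : i ≠ k) (hjk : j ≠ k) : c3 F i j k (ee F j) = ee F k := by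
  rw [c3, pm_ee, cyc_apply_mid hik hjk]

theorem c3_right {i j k : ι} : c3 F i j k (ee F k) = ee F i := by
  rw [c3, pm_ee, cyc_apply_right]

theorem c3_other {i j k l : ι} (h1 : l ≠ i) (h2 : l ≠ j) (h3 : l ≠ k) : c3 F i j k (ee F l) = ee F l := by
  rw [c3, pm_ee, cyc_apply_other h1 h2 h3]

theorem c3_isIso (i j k : ι) : IsIso (c3 F i j k) := pm_isIso _

theorem c3_mono (i j k : ι) : Mono (c3 F i j k) := pm_mono _

/-- extensionality on the standard basis -/
theorem ext_ee {g h : (ι → F) ≃ₗ[F] (ι → F)} (H : ∀ i, g (ee F i) = h (ee F i)) : g = h := by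
  apply LinearEquiv.toLinearMap_injective
  apply LinearMap.pi_ext'
  intro i
  apply LinearMap.ext_ring
  exact H i

theorem eq_sum_ee (x : ι → F) : x = ∑ i, x i • ee F i := by
  funext k
  simp [ee, Finset.sum_apply, Pi.single_apply]

/-- coordinates of an image under an isometry -/
theorem IsIso.apply_eq {g : (ι → F) ≃ₗ[F] (ι → F)} (hg : IsIso g) (x : ι → F) (k : ι) :
    g x k = x ⬝ᵥ g⁻¹ (ee F k) := by
  rw [← dot_ee (g x) k]
  have h := hg x (g⁻¹ (ee F k))
  rw [← LinearEquiv.mul_apply g g⁻¹, mul_inv_cancel] at h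
  exact h

theorem IsIso.fix_coord {g : (ι → F) ≃ₗ[F] (ι → F)} (hg : IsIso g) {k : ι} (hk : g (ee F k) = ee F k)
    (x : ι → F) : g x k = x k := by
  rw [← dot_ee (g x) k, ← dot_ee x k]
  conv_lhs => rw [← hk]
  exact hg x _

theorem IsIso.neg_coord {g : (ι → F) ≃ₗ[F] (ι → F)} (hg : IsIso g) {k : ι} (hk : g (ee F k) = - ee F k)
    (x : ι → F) : g x k = - x k := by
  rw [← dot_ee (g x) k, ← dot_ee x k]
  have h : ee F k = - g (ee F k) := by rw [hk, neg_neg]
  conv_lhs => rw [h]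
  rw [dotProduct_neg, hg x _]

/-- two isometries with disjoint supports commute -/
theorem comm_of_disjoint {s κ : (ι → F) ≃ₗ[F] (ι → F)} (hs : IsIso s) (hκ : IsIso κ) (J : Finset ι)
    (h1 : ∀ k, k ∉ J → s (ee F k) = ee F k) (h2 : ∀ j ∈ J, κ (ee F j) = ee F j) : Commute s κ := by
  have fixs : ∀ x : ι → F, (∀ j ∈ J, x j = 0) → s x = x := by
    intro x hx
    conv_lhs => rw [eq_sum_ee x]
    rw [map_sum]
    conv_rhs => rw [eq_sum_ee x]
    apply Finset.sum_congr rfl
    intro i _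
    by_cases hi : i ∈ J
    · rw [hx i hi]; simp
    · rw [map_smul, h1 i hi]
  have fixκ : ∀ x : ι → F, (∀ k, k ∉ J → x k = 0) → κ x = x := by
    intro x hx
    conv_lhs => rw [eq_sum_ee x]
    rw [map_sum]
    conv_rhs => rw [eq_sum_ee x]
    apply Finset.sum_congr rfl
    intro i _
    by_cases hi : i ∈ J
    · rw [map_smul, h2 i hi]
    · rw [hx i hi]; simp
  apply ext_ee
  intro i
  rw [LinearEquiv.mul_apply, LinearEquiv.mul_apply]
  by_cases hi : i ∈ J
  · rw [h2 i hi, fixκ]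
    intro k hk
    rw [hs.fix_coord (h1 k hk)]
    have : k ≠ i := fun h => hk (h ▸ hi)
    simp [ee, Pi.single_apply, this]
  · rw [h1 i hi, fixs]
    intro j hj
    rw [hκ.fix_coord (h2 j hj)]
    have : j ≠ i := fun h => hi (h ▸ hj)
    simp [ee, Pi.single_apply, this]

end Cfsg.Agent.H928
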