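import Cfsg.Agent.H928.FrameB

/-!
# Orthogonal frames III: the rigid situation, lemmas F1, F4, F2
-/

set_option autoImplicit false
set_option linter.unusedSectionVars false
set_option linter.unusedSimpArgs false
set_option linter.unusedVariables false

namespace Cfsg.Agent.H928

open Matrix

variable {ι : Type*} [Fintype ι] [DecidableEq ι] {F : Type*} [Field F]

theorem IsIso.ee_dot_ee {y : (ι → F) ≃ₗ[F] (ι → F)} (hy : IsIso y) (a b : ι) :
    y (ee F a) ⬝ᵥ y (ee F b) = if a = b then 1 else 0 := by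
  rw [hy, dot_ee, ee, Pi.single_apply]
  by_cases h : a = b
  · rw [if_pos h, if_pos h.symm]
  · rw [if_neg h, if_neg (Ne.symm h)]

theorem conj_sg_apply {y : (ι → F) ≃ₗ[F] (ι → F)} (hy : IsIso y) {p q : ι} (hpq : p ≠ q) (x : ι → F) :
    (y * sg F {p, q} * y⁻¹) x = x - (2 * (x ⬝ᵥ y (ee F p))) • y (ee F p)
      - (2 * (x ⬝ᵥ y (ee F q))) • y (ee F q) := by
  rw [LinearEquiv.mul_apply, LinearEquiv.mul_apply, sg_pair_apply hpq, map_sub, map_sub, map_smul, map_smul]
  rw [hy.inv.apply_eq, hy.inv.apply_eq, inv_inv, ← LinearEquiv.mul_apply y y⁻¹, mul_inv_cancel]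
  rfl

/-- an isometry fixing `± e_j` for `j ∈ S` commutes with the sign change at `S` -/
theorem comm_sg_of_pm {g : (ι → F) ≃ₗ[F] (ι → F)} (hg : IsIso g) (S : Finset ι)
    (h : ∀ j ∈ S, g (ee F j) = ee F j ∨ g (ee F j) = - ee F j) : Commute g (sg F S) := by
  apply ext_ee
  intro i
  rw [LinearEquiv.mul_apply, LinearEquiv.mul_apply]
  by_cases hi : i ∈ S
  · rw [sg_ee_mem hi, map_neg]
    rcases h i hi with h | h <;> rw [h]
    · rw [sg_ee_mem hi]
    · rw [map_neg, sg_ee_mem hi]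
  · rw [sg_ee_not_mem hi]
    funext k
    rw [sg_apply]
    by_cases hk : k ∈ S
    · have hki : k ≠ i := fun h' => hi (h' ▸ hk)
      have e1 : (ee F i : ι → F) k = 0 := by simp [ee, Pi.single_apply, hki]
      rw [if_pos hk]
      rcases h k hk with h | h
      · rw [hg.fix_coord h, e1, neg_zero]
      · rw [hg.neg_coord h, e1, neg_zero, neg_zero]
    · rw [if_neg hk]

/-- conjugating a sign change by a monomial isometry -/
theorem mono_mul_sg {g : (ι → F) ≃ₗ[F] (ι → F)} {σ : Equiv.Perm ι}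
    (hσ : ∀ i, g (ee F i) = ee F (σ i) ∨ g (ee F i) = - ee F (σ i)) (S : Finset ι) :
    g * sg F S * g⁻¹ = sg F (S.image σ) := by
  rw [mul_inv_eq_iff_eq_mul]
  apply ext_ee
  intro i
  rw [LinearEquiv.mul_apply, LinearEquiv.mul_apply]
  by_cases hi : i ∈ S
  · have hi' : σ i ∈ S.image σ := Finset.mem_image_of_mem _ hi
    rw [sg_ee_mem hi, map_neg]
    rcases hσ i with h | h <;> rw [h]
    · rw [sg_ee_mem hi']
    · rw [map_neg, sg_ee_mem hi']
  · have hi' : σ i ∉ S.image σ := by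
      rw [Finset.mem_image]
      rintro ⟨j, hj, hj'⟩
      exact hi (σ.injective hj' ▸ hj)
    rw [sg_ee_not_mem hi]
    rcases hσ i with h | h <;> rw [h]
    · rw [sg_ee_not_mem hi']
    · rw [map_neg, sg_ee_not_mem hi']

theorem sg_injective (h2 : (2 : F) ≠ 0) {S T : Finset ι} (h : sg F S = sg F T) : S = T := by
  ext k
  have hk := congrFun (congrArg (fun g : (ι → F) ≃ₗ[F] (ι → F) => g (ee F k)) h) k
  simp only [sg_apply] at hk
  have e1 : (ee F k : ι → F) k = 1 := by simp [ee]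
  rw [e1] at hk
  have hne : (-1 : F) ≠ 1 := fun h' => h2 (by linear_combination -h')
  by_cases h1 : k ∈ S <;> by_cases h3 : k ∈ T
  · simp [h1, h3]
  · rw [if_pos h1, if_neg h3] at hk; exact absurd hk hne
  · rw [if_neg h1, if_pos h3] at hk; exact absurd hk.symm hne
  · simp [h1, h3]

theorem sg_empty : sg F (∅ : Finset ι) = 1 := by
  apply ext_ee
  intro i
  rw [sg_ee_not_mem (by simp)]
  rfl

theorem card_moved_le (h2 : (2 : F) ≠ 0) {b : (ι → F) ≃ₗ[F] (ι → F)} (hb : Mono b)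
    (W : Submodule F (ι → F)) (hW : ∀ k, b (ee F k) - ee F k ∈ W) (S : Finset ι)
    (hS : ∀ k ∈ S, b (ee F k) ≠ ee F k) : S.card ≤ 2 * Module.finrank F W := by
  obtain ⟨σ, hσ⟩ := hb
  apply card_le_two_mul_finrank
  intro k hk
  refine ⟨b (ee F k) - ee F k, hW k, ?_, σ k, ?_⟩
  · by_cases hσk : σ k = k
    · rcases hσ k with h | h
      · rw [hσk] at h; exact absurd h (hS k hk)
      · rw [hσk] at h
        rw [h, Pi.sub_apply, Pi.neg_apply]
        simp only [ee, Pi.single_eq_same]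
        intro h'
        exact h2 (by linear_combination -h')
    · rcases hσ k with h | h <;> rw [h] <;>
        simp [ee, Pi.single_apply, Ne.symm hσk]
  · intro c hck hcs
    rcases hσ k with h | h <;> rw [h] <;>
        simp [ee, Pi.single_apply, hck, hcs]

theorem finrank_span_pair_le (u v : ι → F) : Module.finrank F (Submodule.span F ({u, v} : Set (ι → F))) ≤ 2 := by
  classical
  have h := finrank_span_finset_le_card (R := F) ({u, v} : Finset (ι → F))
  rw [Finset.coe_pair] at h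
  exact h.trans Finset.card_le_two

/-- the rigid situation -/
structure Rig (X : Subgroup ((ι → F) ≃ₗ[F] (ι → F))) : Prop where
  two : (2 : F) ≠ 0
  card : 9 ≤ Fintype.card ι
  iso : ∀ g ∈ X, IsIso g
  hsg : ∀ i j, i ≠ j → sg F {i, j} ∈ X
  hc3 : ∀ i j k, i ≠ j → i ≠ k → j ≠ k → c3 F i j k ∈ X
  H : ∀ g ∈ X, ∀ i j, i ≠ j → Commute g (sg F {i, j}) → Mono g

variable {X : Subgroup ((ι → F) ≃ₗ[F] (ι → F))}

theorem commute_conj_iff {G : Type*} [Group G] {y a b : G} : Commute (y * a * y⁻¹) b ↔ Commute a (y⁻¹ * b * y) := by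
  have : y⁻¹ * b * y = MulAut.conj y⁻¹ b := by simp [MulAut.conj_apply]
  constructor
  · intro h
    have h' : (y * a * y⁻¹) * b = b * (y * a * y⁻¹) := h
    show a * (y⁻¹ * b * y) = (y⁻¹ * b * y) * a
    calc a * (y⁻¹ * b * y) = y⁻¹ * ((y * a * y⁻¹) * b) * y := by group
      _ = y⁻¹ * (b * (y * a * y⁻¹)) * y := by rw [h']
      _ = (y⁻¹ * b * y) * a := by group
  · intro h
    have h' : a * (y⁻¹ * b * y) = (y⁻¹ * b * y) * a := h
    show (y * a * y⁻¹) * b = b * (y * a * y⁻¹)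
    calc (y * a * y⁻¹) * b = y * (a * (y⁻¹ * b * y)) * y⁻¹ := by group
      _ = y * ((y⁻¹ * b * y) * a) * y⁻¹ := by rw [h']
      _ = b * (y * a * y⁻¹) := by group

theorem Rig.mono_conj_of_comm (R : Rig X) {y κ : (ι → F) ≃ₗ[F] (ι → F)} (hy : y ∈ X) (hκ : κ ∈ X) {p q : ι}
    (hpq : p ≠ q) (hcomm : Commute (y * sg F {p, q} * y⁻¹) κ) : Mono (y⁻¹ * κ * y) :=
  R.H _ (X.mul_mem (X.mul_mem (X.inv_mem hy) hκ) hy) p q hpq (commute_conj_iff.1 hcomm).symm

theorem Rig.perms_of_comm (R : Rig X) {y κ : (ι → F) ≃ₗ[F] (ι → F)} (hy : y ∈ X) (hκ : κ ∈ X) {p q : ι}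
    (hpq : p ≠ q) (hcomm : Commute (y * sg F {p, q} * y⁻¹) κ) : Perms (fun a => y (ee F a)) κ := by
  intro a
  obtain ⟨σ, hσ⟩ := R.mono_conj_of_comm hy hκ hpq hcomm
  refine ⟨σ a, ?_⟩
  have key : κ (y (ee F a)) = y ((y⁻¹ * κ * y) (ee F a)) := by
    rw [← LinearEquiv.mul_apply, ← LinearEquiv.mul_apply]
    congr 1
    group
  rcases hσ a with h | h
  · left
    show κ (y (ee F a)) = _
    rw [key, h]
  · right
    show κ (y (ee F a)) = _
    rw [key, h, map_neg]

/-- the moved coordinates of a monomial conjugate of `t_pq` -/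
theorem Rig.card_moved_conj (R : Rig X) {y : (ι → F) ≃ₗ[F] (ι → F)} (hy : y ∈ X) {p q : ι}
    (hpq : p ≠ q) (hm : Mono (y * sg F {p, q} * y⁻¹)) (S : Finset ι)
    (hS : ∀ k ∈ S, (y * sg F {p, q} * y⁻¹) (ee F k) ≠ ee F k) : S.card ≤ 4 := by
  have h := card_moved_le R.two hm (Submodule.span F {y (ee F p), y (ee F q)}) ?_ S hS
  · have := finrank_span_pair_le (y (ee F p)) (y (ee F q))
    omega
  · intro k
    rw [conj_sg_apply (R.iso y hy) hpq]
    have e1 : ee F k - (2 * (ee F k ⬝ᵥ y (ee F p))) • y (ee F p)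
      - (2 * (ee F k ⬝ᵥ y (ee F q))) • y (ee F q) - ee F k =
      (- (2 * (ee F k ⬝ᵥ y (ee F p)))) • y (ee F p) + (- (2 * (ee F k ⬝ᵥ y (ee F q)))) • y (ee F q) := by
      rw [neg_smul, neg_smul]; abel
    rw [e1]
    exact Submodule.add_mem _ (Submodule.smul_mem _ _ (Submodule.subset_span (by simp)))
      (Submodule.smul_mem _ _ (Submodule.subset_span (by simp)))

theorem Rig.F1 (R : Rig X) {y : (ι → F) ≃ₗ[F] (ι → F)} (hy : y ∈ X) {p q : ι}
    (hpq : p ≠ q) (hm : Mono (y * sg F {p, q} * y⁻¹)) : Mono y := by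
  classical
  set s := y * sg F {p, q} * y⁻¹ with hs
  have hsX : s ∈ X := X.mul_mem (X.mul_mem hy (R.hsg p q hpq)) (X.inv_mem hy)
  set J : Finset ι := Finset.univ.filter (fun k => s (ee F k) ≠ ee F k) with hJdef
  have hJ4 : J.card ≤ 4 := R.card_moved_conj hy hpq hm J (fun k hk => (Finset.mem_filter.1 hk).2)
  have hn := R.card
  have hfix : ∀ k, k ∉ J → s (ee F k) = ee F k := by
    intro k hk
    by_contra h
    exact hk (Finset.mem_filter.2 ⟨Finset.mem_univ _, h⟩)
  have hyI := R.iso y hy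
  have hfd : ∀ a b, (fun a => y (ee F a)) a ⬝ᵥ (fun a => y (ee F a)) b = if a = b then 1 else 0 :=
    fun a b => hyI.ee_dot_ee a b
  have core := frame_core R.two (fun a => y (ee F a)) hfd J (by omega)
    (by
      intro k l hk hl hkl
      apply R.perms_of_comm hy (R.hsg k l hkl) hpq
      apply comm_of_disjoint (R.iso s hsX) (sg_isIso _) J hfix
      intro j hj
      apply sg_ee_not_mem
      simp only [Finset.mem_insert, Finset.mem_singleton, not_or]
      exact ⟨fun h => hk (h ▸ hj), fun h => hl (h ▸ hj)⟩)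
    (by
      intro k l m hk hl hm' hkl hkm hlm
      apply R.perms_of_comm hy (R.hc3 k l m hkl hkm hlm) hpq
      apply comm_of_disjoint (R.iso s hsX) (c3_isIso _ _ _) J hfix
      intro j hj
      apply c3_other
      · exact fun h => hk (h ▸ hj)
      · exact fun h => hl (h ▸ hj)
      · exact fun h => hm' (h ▸ hj))
  -- every `e_k`, `k ∉ J`, is in the frame `y`
  have hak : ∀ k, k ∉ J → ∃ a, y (ee F a) = ee F k ∨ y (ee F a) = - ee F k := by
    intro k hk
    have hne : y⁻¹ (ee F k) ≠ 0 := by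
      intro h
      apply ee_ne_zero (F := F) k
      have := congrArg y h
      rwa [← LinearEquiv.mul_apply, mul_inv_cancel, map_zero] at this
    obtain ⟨a, ha⟩ := Function.ne_iff.1 hne
    rw [hyI.inv.apply_eq, inv_inv, ee_dot, Pi.zero_apply] at ha
    refine ⟨a, ?_⟩
    rcases core a with ⟨m, hm1, hm2⟩ | h
    · have : k = m := by
        by_contra hkm
        apply ha
        rcases hm2 with h | h
        · have h' : y (ee F a) = ee F m := h
          rw [h']; simp [ee, Pi.single_apply, hkm]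
        · have h' : y (ee F a) = - ee F m := h
          rw [h']; simp [ee, Pi.single_apply, hkm]
      rw [this]; exact hm2
    · exact absurd (h k hk) ha
  apply mono_of_forall R.two
  intro a
  rcases core a with ⟨k, _, hk⟩ | hzero
  · exact ⟨k, hk⟩
  have hzero' : ∀ k, k ∉ J → y (ee F a) k = 0 := hzero
  obtain ⟨k, hkJ, _⟩ := exists_not_mem_of_card (J := J) (n := 0) (by omega) (∅ : Finset ι) (by simp)
  obtain ⟨l, hlJ, hlT⟩ := exists_not_mem_of_card (J := J) (n := 1) (by omega) ({k} : Finset ι) (by simp)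
  obtain ⟨m, hmJ, hmT⟩ := exists_not_mem_of_card (J := J) (n := 2) (by omega) ({k, l} : Finset ι)
    (Finset.card_le_two)
  obtain ⟨r, hrJ, hrT⟩ := exists_not_mem_of_card (J := J) (n := 3) (by omega) ({k, l, m} : Finset ι)
    (Finset.card_le_three)
  simp only [Finset.mem_insert, Finset.mem_singleton, not_or] at hlT hmT hrT
  obtain ⟨ak, hak'⟩ := hak k hkJ
  obtain ⟨al, hal'⟩ := hak l hlJ
  obtain ⟨am, ham'⟩ := hak m hmJ
  obtain ⟨ar, har'⟩ := hak r hrJ
  -- distinctness
  have dist : ∀ {k l ak al : ι}, k ≠ l → (y (ee F ak) = ee F k ∨ y (ee F ak) = - ee F k) →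
      (y (ee F al) = ee F l ∨ y (ee F al) = - ee F l) → ak ≠ al := by
    intro k l ak al hkl h h' he
    subst he
    apply hkl
    apply ee_inj_or R.two (F := F)
    rcases h with h | h <;> rcases h' with h' | h'
    · left; rw [← h, h']
    · right; rw [← h, h']
    · right
      rw [← h', h, neg_neg]
    · left
      have := h.symm.trans h'
      exact neg_injective this
  have dista : ∀ {k ak : ι}, k ∉ J → (y (ee F ak) = ee F k ∨ y (ee F ak) = - ee F k) → a ≠ ak := by
    intro k ak hk h he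
    subst he
    have h0 := hzero' k hk
    rcases h with h | h
    · rw [h] at h0; simp [ee] at h0
    · rw [h] at h0; simp [ee] at h0
  have hkl := dist (Ne.symm hlT) hak' hal'
  have hkm := dist (Ne.symm hmT.1) hak' ham'
  have hlm := dist (Ne.symm hmT.2) hal' ham'
  have hkr := dist (Ne.symm hrT.1) hak' har'
  have hlr := dist (Ne.symm hrT.2.1) hal' har'
  have hak2 := dista hkJ hak'
  have hal2 := dista hlJ hal'
  have ham2 := dista hmJ ham'
  have har2 := dista hrJ har'
  set τ := y * c3 F a ak al * y⁻¹ with hτ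
  have hτX : τ ∈ X := X.mul_mem (X.mul_mem hy (R.hc3 a ak al hak2 hal2 hkl)) (X.inv_mem hy)
  have hτy : ∀ c, τ (y (ee F c)) = y (c3 F a ak al (ee F c)) := by
    intro c
    rw [hτ, LinearEquiv.mul_apply, LinearEquiv.mul_apply, ← LinearEquiv.mul_apply y⁻¹ y, inv_mul_cancel]
    rfl
  have fixof : ∀ {m am : ι}, (y (ee F am) = ee F m ∨ y (ee F am) = - ee F m) → am ≠ a → am ≠ ak → am ≠ al →
      τ (ee F m) = ee F m := by
    intro m am h h1 h3 h4
    have e := hτy am
    rw [c3_other h1 h3 h4] at e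
    rcases h with h | h
    · rw [h] at e; exact e
    · rw [h, map_neg] at e; exact neg_injective e
  have fm := fixof ham' (Ne.symm ham2) (Ne.symm hkm) (Ne.symm hlm)
  have fr := fixof har' (Ne.symm har2) (Ne.symm hkr) (Ne.symm hlr)
  have hτM : Mono τ := by
    apply R.H τ hτX m r (Ne.symm hrT.2.2)
    apply comm_sg_of_pm (R.iso τ hτX)
    intro j hj
    simp only [Finset.mem_insert, Finset.mem_singleton] at hj
    rcases hj with rfl | rfl
    · exact Or.inl fm
    · exact Or.inl fr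
  obtain ⟨σ, hσ⟩ := hτM
  have e := hτy al
  rw [c3_right] at e
  refine ⟨σ l, ?_⟩
  rw [← e]
  rcases hal' with h | h
  · rw [h]; exact hσ l
  · rw [h, map_neg]
    rcases hσ l with h' | h'
    · right; rw [h']
    · left; rw [h', neg_neg]

theorem Rig.F4 (R : Rig X) {y w : (ι → F) ≃ₗ[F] (ι → F)} (hy : y ∈ X) (hw : w ∈ X) {p q r s : ι}
    (hpq : p ≠ q) (hrs : r ≠ s) (h : Commute (y * sg F {p, q} * y⁻¹) (w * sg F {r, s} * w⁻¹)) :
    Mono (y⁻¹ * w) := by
  have h1 := R.mono_conj_of_comm hy (X.mul_mem (X.mul_mem hw (R.hsg r s hrs)) (X.inv_mem hw)) hpq h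
  apply R.F1 (X.mul_mem (X.inv_mem hy) hw) hrs
  have e : y⁻¹ * w * sg F {r, s} * (y⁻¹ * w)⁻¹ = y⁻¹ * (w * sg F {r, s} * w⁻¹) * y := by group
  rw [e]
  exact h1

end Cfsg.Agent.H928
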