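import Cfsg.Agent.H928.FrameC

/-!
# Orthogonal frames IV: lemma F2
-/

set_option autoImplicit false
set_option linter.unusedSectionVars false
set_option linter.unusedSimpArgs false
set_option linter.unusedVariables false

namespace Cfsg.Agent.H928

open Matrix

variable {ι : Type*} [Fintype ι] [DecidableEq ι] {F : Type*} [Field F]

theorem fix_supported {κ : (ι → F) ≃ₗ[F] (ι → F)} {J : Finset ι} (h2 : ∀ j ∈ J, κ (ee F j) = ee F j)
    {x : ι → F} (hx : ∀ k, k ∉ J → x k = 0) : κ x = x := by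
  conv_lhs => rw [eq_sum_ee x]
  rw [map_sum]
  conv_rhs => rw [eq_sum_ee x]
  apply Finset.sum_congr rfl
  intro i _
  by_cases hi : i ∈ J
  · rw [map_smul, h2 i hi]
  · rw [hx i hi]; simp

/-- splitting lemma -/
theorem split_plane {u v : ι → F} (huu : u ⬝ᵥ u = 1) (hvv : v ⬝ᵥ v = 1) (huv : u ⬝ᵥ v = 0) {I : Finset ι}
    (orth : ∀ i ∈ I, ∀ k, k ∉ I → u i * u k + v i * v k = 0)
    {i0 : ι} (hi0 : i0 ∈ I) (hz : ¬ (u i0 = 0 ∧ v i0 = 0))
    {k0 : ι} (hk0 : k0 ∉ I) (hzk : ¬ (u k0 = 0 ∧ v k0 = 0)) :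
    ∃ (c : ι → F) (N : F), N ≠ 0 ∧ (∀ i ∈ I, c i = 0) ∧ (∀ k, k ∉ I → (c k = 0 → u k = 0 ∧ v k = 0)) ∧
      ∀ x : ι → F, (∀ i ∈ I, x i = 0) → (x ⬝ᵥ u) • u + (x ⬝ᵥ v) • v = (N * (x ⬝ᵥ c)) • c := by
  obtain ⟨c, hc0, hc1⟩ : ∃ c : ι → F, (∀ i ∈ I, c i = 0) ∧
      ∀ k, k ∉ I → u k = c k * (- v i0) ∧ v k = c k * u i0 := by
    by_cases hu : u i0 = 0
    · have hv : v i0 ≠ 0 := fun h => hz ⟨hu, h⟩
      refine ⟨fun k => if k ∈ I then 0 else - u k / v i0, fun i hi => if_pos hi, fun k hk => ?_⟩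
      simp only [if_neg hk]
      have h := orth i0 hi0 k hk
      rw [hu, zero_mul, zero_add] at h
      refine ⟨by field_simp, ?_⟩
      rw [hu, mul_zero]
      exact (mul_eq_zero.1 h).resolve_left hv
    · refine ⟨fun k => if k ∈ I then 0 else v k / u i0, fun i hi => if_pos hi, fun k hk => ?_⟩
      simp only [if_neg hk]
      have h := orth i0 hi0 k hk
      refine ⟨?_, by field_simp⟩
      field_simp
      linear_combination h
  have hck0 : c k0 ≠ 0 := by
    intro h
    apply hzk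
    obtain ⟨h1, h3⟩ := hc1 k0 hk0
    rw [h, zero_mul] at h1 h3
    exact ⟨h1, h3⟩
  have hB : (- v i0) • u + (u i0) • v = ((v i0) ^ 2 + (u i0) ^ 2) • c := by
    funext k
    simp only [Pi.add_apply, Pi.smul_apply, smul_eq_mul]
    by_cases hk : k ∈ I
    · rw [hc0 k hk, mul_zero]
      have h := orth k hk k0 hk0
      obtain ⟨h1, h3⟩ := hc1 k0 hk0
      rw [h1, h3] at h
      have h' : c k0 * (- v i0 * u k + u i0 * v k) = 0 := by linear_combination h
      exact (mul_eq_zero.1 h').resolve_left hck0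
    · obtain ⟨h1, h3⟩ := hc1 k hk
      rw [h1, h3]
      ring
  refine ⟨c, (v i0) ^ 2 + (u i0) ^ 2, ?_, hc0, ?_, ?_⟩
  · intro h0
    rw [h0, zero_smul] at hB
    apply hz
    have hvu : v ⬝ᵥ u = 0 := by rw [dotProduct_comm]; exact huv
    have e1 := congrArg (fun z => z ⬝ᵥ u) hB
    have e2 := congrArg (fun z => z ⬝ᵥ v) hB
    simp only [add_dotProduct, smul_dotProduct, huu, hvv, huv, hvu, zero_dotProduct, smul_eq_mul] at e1 e2
    exact ⟨by linear_combination e2, by linear_combination -e1⟩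
  · intro k hk h
    obtain ⟨h1, h3⟩ := hc1 k hk
    rw [h, zero_mul] at h1 h3
    exact ⟨h1, h3⟩
  · intro x hx
    have hxu : x ⬝ᵥ u = (x ⬝ᵥ c) * (- v i0) := by
      unfold dotProduct
      rw [Finset.sum_mul]
      apply Finset.sum_congr rfl
      intro k _
      by_cases hk : k ∈ I
      · rw [hx k hk]; ring
      · rw [(hc1 k hk).1]; ring
    have hxv : x ⬝ᵥ v = (x ⬝ᵥ c) * (u i0) := by
      unfold dotProduct
      rw [Finset.sum_mul]
      apply Finset.sum_congr rfl
      intro k _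
      by_cases hk : k ∈ I
      · rw [hx k hk]; ring
      · rw [(hc1 k hk).2]; ring
    rw [hxu, hxv, mul_smul, mul_smul, ← smul_add, hB, smul_smul, mul_comm (x ⬝ᵥ c)]

variable {X : Subgroup ((ι → F) ≃ₗ[F] (ι → F))}

theorem Rig.F2 (R : Rig X) {y : (ι → F) ≃ₗ[F] (ι → F)} (hy : y ∈ X) {p q : ι}
    (hpq : p ≠ q) {I : Finset ι} (hI : I.card = 4) (hcomm : Commute (y * sg F {p, q} * y⁻¹) (sg F I)) :
    Mono y := by
  classical
  have hn := R.card
  have hyI := R.iso y hy
  have h2 := R.two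
  set a := y * sg F {p, q} * y⁻¹ with ha
  have haX : a ∈ X := X.mul_mem (X.mul_mem hy (R.hsg p q hpq)) (X.inv_mem hy)
  have haI := R.iso a haX
  set u := y (ee F p) with hu
  set v := y (ee F q) with hv
  have huu : u ⬝ᵥ u = 1 := by rw [hu, hyI.ee_dot_ee, if_pos rfl]
  have hvv : v ⬝ᵥ v = 1 := by rw [hv, hyI.ee_dot_ee, if_pos rfl]
  have huv : u ⬝ᵥ v = 0 := by rw [hu, hv, hyI.ee_dot_ee, if_neg hpq]
  have hax : ∀ x, a x = x - (2 * (x ⬝ᵥ u)) • u - (2 * (x ⬝ᵥ v)) • v := fun x => conj_sg_apply hyI hpq x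
  have haa : a * a = 1 := by
    have e : a * a = y * (sg F {p, q} * sg F {p, q}) * y⁻¹ := by rw [ha]; group
    rw [e, sg_mul_self, mul_one, mul_inv_cancel]
  have hF1 : Mono a → Mono y := fun h => R.F1 hy hpq (ha ▸ h)
  clear_value a u v
  -- orthogonality
  have orth : ∀ i ∈ I, ∀ k, k ∉ I → u i * u k + v i * v k = 0 := by
    intro i hi k hk
    have h := congrArg (fun g : (ι → F) ≃ₗ[F] (ι → F) => g (ee F k) i) hcomm.eq
    simp only [LinearEquiv.mul_apply] at h
    rw [sg_ee_not_mem hk, sg_apply, if_pos hi, hax, ee_dot, ee_dot] at h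
    have e1 : (ee F k : ι → F) i = 0 := by
      have : i ≠ k := fun h => hk (h ▸ hi)
      simp [ee, Pi.single_apply, this]
    simp only [Pi.sub_apply, Pi.smul_apply, smul_eq_mul, e1] at h
    have h' : 2 * (2 * (u i * u k + v i * v k)) = 0 := by linear_combination -h
    exact (mul_eq_zero.1 ((mul_eq_zero.1 h').resolve_left h2)).resolve_left h2
  by_contra hM
  have hfixed : ∀ b ∈ X, ∀ k l, k ≠ l → b (ee F k) = ee F k → b (ee F l) = ee F l → Mono b := by
    intro b hb k l hkl h1 h3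
    apply R.H b hb k l hkl
    apply comm_sg_of_pm (R.iso b hb)
    intro j hj
    simp only [Finset.mem_insert, Finset.mem_singleton] at hj
    rcases hj with rfl | rfl
    · exact Or.inl h1
    · exact Or.inl h3
  have hzero : ∀ k l, k ≠ l → (u k = 0 ∧ v k = 0) → ¬ (u l = 0 ∧ v l = 0) := by
    intro k l hkl hk hl
    apply hM
    apply hF1
    apply hfixed a haX k l hkl
    · rw [hax, ee_dot, ee_dot, hk.1, hk.2]; simp
    · rw [hax, ee_dot, ee_dot, hl.1, hl.2]; simp
  obtain ⟨i1, hi1, i2, hi2, hi12⟩ := Finset.one_lt_card.1 (show 1 < I.card by omega)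
  obtain ⟨i0, hi0, hz0⟩ : ∃ i0 ∈ I, ¬ (u i0 = 0 ∧ v i0 = 0) := by
    by_cases h : u i1 = 0 ∧ v i1 = 0
    · exact ⟨i2, hi2, hzero i1 i2 hi12 h⟩
    · exact ⟨i1, hi1, h⟩
  obtain ⟨k1, hk1, _⟩ := exists_not_mem_of_card (J := I) (n := 0) (by omega) (∅ : Finset ι) (by simp)
  obtain ⟨k2, hk2, hk2T⟩ := exists_not_mem_of_card (J := I) (n := 1) (by omega) ({k1} : Finset ι) (by simp)
  obtain ⟨k3, hk3, hk3T⟩ := exists_not_mem_of_card (J := I) (n := 2) (by omega) ({k1, k2} : Finset ι)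
    (Finset.card_le_two)
  simp only [Finset.mem_insert, Finset.mem_singleton, not_or] at hk2T hk3T
  obtain ⟨k0, hk0, hzk0⟩ : ∃ k0, k0 ∉ I ∧ ¬ (u k0 = 0 ∧ v k0 = 0) := by
    by_cases h : u k1 = 0 ∧ v k1 = 0
    · exact ⟨k2, hk2, hzero k1 k2 (Ne.symm hk2T) h⟩
    · exact ⟨k1, hk1, h⟩
  obtain ⟨c, N, hN, hc0, hcz, hP⟩ := split_plane huu hvv huv orth hi0 hz0 hk0 hzk0
  have hcz' : ∀ k l, k ∉ I → l ∉ I → k ≠ l → c k = 0 → c l ≠ 0 := by
    intro k l hk hl hkl h1 h3
    exact hzero k l hkl (hcz k hk h1) (hcz l hl h3)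
  -- the element σ
  obtain ⟨σ, hσX, hσI, hσ⟩ : ∃ σ ∈ X, (∀ i ∈ I, σ (ee F i) = ee F i) ∧
      ∀ r, r ∉ I → c r • c ≠ (σ c) r • σ c := by
    by_cases hA : ∀ r, r ∉ I → c r ≠ 0
    · refine ⟨sg F {k1, k2}, R.hsg k1 k2 (Ne.symm hk2T), ?_, ?_⟩
      · intro i hi
        apply sg_ee_not_mem
        simp only [Finset.mem_insert, Finset.mem_singleton, not_or]
        exact ⟨fun h => hk1 (h ▸ hi), fun h => hk2 (h ▸ hi)⟩
      · intro r hr h
        by_cases hr' : r ∈ ({k1, k2} : Finset ι)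
        · have h3 := congrFun h k3
          simp only [Pi.smul_apply, smul_eq_mul] at h3
          rw [sg_apply, if_pos hr', sg_apply, if_neg (by simp [hk3T.1, hk3T.2])] at h3
          have h' : 2 * (c r * c k3) = 0 := by linear_combination h3
          exact (mul_ne_zero (hA r hr) (hA k3 hk3)) ((mul_eq_zero.1 h').resolve_left h2)
        · have h3 := congrFun h k1
          simp only [Pi.smul_apply, smul_eq_mul] at h3
          rw [sg_apply, if_neg hr', sg_apply, if_pos (by simp)] at h3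
          have h' : 2 * (c r * c k1) = 0 := by linear_combination h3
          exact (mul_ne_zero (hA r hr) (hA k1 hk1)) ((mul_eq_zero.1 h').resolve_left h2)
    · push Not at hA
      obtain ⟨l, hl, hcl⟩ := hA
      obtain ⟨k, hk, hkT⟩ := exists_not_mem_of_card (J := I) (n := 1) (by omega) ({l} : Finset ι) (by simp)
      obtain ⟨m, hm, hmT⟩ := exists_not_mem_of_card (J := I) (n := 2) (by omega) ({l, k} : Finset ι)
        (Finset.card_le_two)
      simp only [Finset.mem_insert, Finset.mem_singleton, not_or] at hkT hmT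
      have hck := hcz' l k hl hk (Ne.symm hkT) hcl
      have hcm := hcz' l m hl hm (Ne.symm hmT.1) hcl
      refine ⟨c3 F k m l, R.hc3 k m l (Ne.symm hmT.2) hkT hmT.1, ?_, ?_⟩
      · intro i hi
        apply c3_other
        · exact fun h => hk (h ▸ hi)
        · exact fun h => hm (h ▸ hi)
        · exact fun h => hl (h ▸ hi)
      · intro r hr h
        have ev := c3_apply_vec (Ne.symm hmT.2) hkT hmT.1 c
        have evl : c3 F k m l c l = c m := by
          rw [ev]
          simp [ee, Pi.single_apply, Ne.symm hkT, Ne.symm hmT.1]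
        have h3 := congrFun h l
        simp only [Pi.smul_apply, smul_eq_mul] at h3
        rw [hcl, mul_zero, evl] at h3
        have h4 : c3 F k m l c r = 0 := (mul_eq_zero.1 h3.symm).resolve_right hcm
        have h5 := congrFun h k
        simp only [Pi.smul_apply, smul_eq_mul] at h5
        rw [h4, zero_mul] at h5
        have h6 : c r = 0 := (mul_eq_zero.1 h5).resolve_right hck
        have h7 : r = l := by
          by_contra hrl
          exact hcz' l r hl hr (Ne.symm hrl) hcl h6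
        rw [h7, evl] at h4
        exact hcm h4
  have hσiso := R.iso σ hσX
  -- `a` on vectors supported off `I`
  have haV : ∀ x : ι → F, (∀ i ∈ I, x i = 0) → a x = x - (2 * N * (x ⬝ᵥ c)) • c := by
    intro x hx
    rw [hax]
    have e : (2 * (x ⬝ᵥ u)) • u + (2 * (x ⬝ᵥ v)) • v = (2 * N * (x ⬝ᵥ c)) • c := by
      rw [mul_smul, mul_smul, ← smul_add, hP x hx, smul_smul, mul_assoc]
    rw [← e]; abel
  have hσinv : ∀ i ∈ I, σ⁻¹ (ee F i) = ee F i := by
    intro i hi
    have : σ⁻¹ (σ (ee F i)) = σ⁻¹ (ee F i) := by rw [hσI i hi]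
    rw [← LinearEquiv.mul_apply, inv_mul_cancel] at this
    exact this.symm
  have hσc : ∀ i ∈ I, (σ c) i = 0 := by
    intro i hi
    rw [hσiso.fix_coord (hσI i hi), hc0 i hi]
  have hσaσ : ∀ x : ι → F, (∀ i ∈ I, x i = 0) →
      (σ * a * σ⁻¹) x = x - (2 * N * (x ⬝ᵥ σ c)) • σ c := by
    intro x hx
    rw [LinearEquiv.mul_apply, LinearEquiv.mul_apply, haV]
    · rw [map_sub, map_smul, ← LinearEquiv.mul_apply σ σ⁻¹, mul_inv_cancel, LinearEquiv.coe_one, id]
      congr 3
      rw [← hσiso (σ⁻¹ x) c, ← LinearEquiv.mul_apply σ σ⁻¹, mul_inv_cancel, LinearEquiv.coe_one, id]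
    · intro i hi
      rw [hσiso.inv.fix_coord (hσinv i hi), hx i hi]
  set b := a * (σ * a * σ⁻¹) with hb
  have hbX : b ∈ X := X.mul_mem haX (X.mul_mem (X.mul_mem hσX haX) (X.inv_mem hσX))
  have hbI : ∀ i ∈ I, b (ee F i) = ee F i := by
    intro i hi
    rw [hb, LinearEquiv.mul_apply, LinearEquiv.mul_apply, LinearEquiv.mul_apply, hσinv i hi]
    rw [fix_supported (κ := σ) hσI (x := a (ee F i)), ← LinearEquiv.mul_apply, haa]
    · rfl
    · intro k hk
      rw [hax, ee_dot, ee_dot]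
      have e1 : (ee F i : ι → F) k = 0 := by
        have : k ≠ i := fun h => hk (h ▸ hi)
        simp [ee, Pi.single_apply, this]
      simp only [Pi.sub_apply, Pi.smul_apply, smul_eq_mul, e1]
      linear_combination (-2) * orth i hi k hk
  have hbM : Mono b := hfixed b hbX i1 i2 hi12 (hbI i1 hi1) (hbI i2 hi2)
  have hev : ∀ r, r ∉ I → ∀ i ∈ I, (ee F r : ι → F) i = 0 := by
    intro r hr i hi
    have : i ≠ r := fun h => hr (h ▸ hi)
    simp [ee, Pi.single_apply, this]
  have hcard := card_moved_le h2 hbM (Submodule.span F {c, σ c}) ?_ (Iᶜ) ?_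
  · have h3 := finrank_span_pair_le c (σ c)
    have h4 : (Iᶜ).card = Fintype.card ι - I.card := Finset.card_compl I
    omega
  · intro r
    by_cases hr : r ∈ I
    · rw [hbI r hr, sub_self]; exact Submodule.zero_mem _
    · rw [hb, LinearEquiv.mul_apply, hσaσ _ (hev r hr), haV]
      · have e : ∀ α β : F, ee F r - α • σ c - β • c - ee F r = (-α) • σ c + (-β) • c := by
          intro α β; rw [neg_smul, neg_smul]; abel
        rw [e]
        exact Submodule.add_mem _ (Submodule.smul_mem _ _ (Submodule.subset_span (by simp)))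
          (Submodule.smul_mem _ _ (Submodule.subset_span (by simp)))
      · intro i hi
        rw [Pi.sub_apply, Pi.smul_apply, hσc i hi, hev r hr i hi]
        simp
  · intro r hr hbr
    rw [Finset.mem_compl] at hr
    apply hσ r hr
    have h3 := congrArg a hbr
    rw [hb, LinearEquiv.mul_apply, ← LinearEquiv.mul_apply a a, haa, LinearEquiv.coe_one, id,
      hσaσ _ (hev r hr), haV _ (hev r hr), ee_dot, ee_dot] at h3
    have h4 : (2 * N * (σ c) r) • σ c = (2 * N * c r) • c := by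
      have := sub_right_inj.1 h3
      exact this
    have h2N : 2 * N ≠ 0 := mul_ne_zero h2 hN
    have h5 : (2 * N) • ((σ c) r • σ c) = (2 * N) • (c r • c) := by
      rw [smul_smul, smul_smul]; exact h4
    exact (smul_right_injective (ι → F) h2N h5).symm

end Cfsg.Agent.H928
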