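import Cfsg.Agent.H928.FrameE

/-!
# Orthogonal frames VI: roots; if all roots have support at most two, the group is rigid
-/

set_option autoImplicit false
set_option linter.unusedSectionVars false
set_option linter.unusedSimpArgs false
set_option linter.unusedVariables false

namespace Cfsg.Agent.H928

open Matrix

variable {ι : Type*} [Fintype ι] [DecidableEq ι] {F : Type*} [Field F]

/-- the reflection in a vector of norm one -/
noncomputable def rf (u : ι → F) : (ι → F) ≃ₗ[F] (ι → F) :=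
  open Classical in
  if h : u ⬝ᵥ u = 1 then
    LinearEquiv.ofInvolutive
      (LinearMap.id - (2 : F) • (dotProductBilin F F u).smulRight u) (by
        intro x
        simp only [LinearMap.sub_apply, LinearMap.id_apply, LinearMap.smul_apply, LinearMap.smulRight_apply]
        have e : ∀ y : ι → F, (dotProductBilin F F u) y = u ⬝ᵥ y := fun y => rfl
        rw [e, e, dotProduct_sub, dotProduct_smul, dotProduct_smul, h]
        module)
  else 1

theorem rf_apply {u : ι → F} (h : u ⬝ᵥ u = 1) (x : ι → F) : rf u x = x - (2 * (x ⬝ᵥ u)) • u := by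
  rw [rf, dif_pos h]
  show x - (2 : F) • ((u ⬝ᵥ x) • u) = _
  rw [smul_smul, dotProduct_comm u x]

theorem rf_isIso {u : ι → F} (h : u ⬝ᵥ u = 1) : IsIso (rf u) := by
  intro x y
  rw [rf_apply h, rf_apply h]
  simp only [sub_dotProduct, dotProduct_sub, smul_dotProduct, dotProduct_smul, smul_eq_mul, h]
  rw [dotProduct_comm u y]
  ring

theorem rf_mul_self {u : ι → F} (h : u ⬝ᵥ u = 1) : rf u * rf u = 1 := by
  apply LinearEquiv.ext
  intro x
  rw [LinearEquiv.mul_apply, rf_apply h, rf_apply h, sub_dotProduct, smul_dotProduct, h]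
  show _ = x
  simp only [smul_eq_mul, mul_one]
  module

theorem rf_inv {u : ι → F} (h : u ⬝ᵥ u = 1) : (rf u)⁻¹ = rf u := by
  rw [inv_eq_iff_mul_eq_one, rf_mul_self h]

theorem IsIso.map_rf {g : (ι → F) ≃ₗ[F] (ι → F)} (hg : IsIso g) {u : ι → F} (h : u ⬝ᵥ u = 1) :
    rf (g u) = g * rf u * g⁻¹ := by
  have h' : g u ⬝ᵥ g u = 1 := by rw [hg, h]
  apply LinearEquiv.ext
  intro x
  rw [rf_apply h', LinearEquiv.mul_apply, LinearEquiv.mul_apply, rf_apply h, map_sub, map_smul]
  rw [← LinearEquiv.mul_apply g g⁻¹, mul_inv_cancel]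
  have e : g⁻¹ x ⬝ᵥ u = x ⬝ᵥ g u := by
    rw [← hg (g⁻¹ x) u, ← LinearEquiv.mul_apply g g⁻¹, mul_inv_cancel]; rfl
  rw [e]; rfl

theorem rf_neg {u : ι → F} (h : u ⬝ᵥ u = 1) : rf (-u) = rf u := by
  have h' : (-u) ⬝ᵥ (-u) = 1 := by rw [neg_dotProduct, dotProduct_neg, neg_neg, h]
  apply LinearEquiv.ext
  intro x
  rw [rf_apply h, rf_apply h', dotProduct_neg]
  module

theorem ee_norm (k : ι) : (ee F k : ι → F) ⬝ᵥ ee F k = 1 := by rw [dot_ee]; simp [ee]

theorem ee_same (k : ι) : (ee F k : ι → F) k = 1 := by simp [ee]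

theorem ee_ne {i k : ι} (h : i ≠ k) : (ee F k : ι → F) i = 0 := by simp [ee, Pi.single_apply, h]

theorem rf_ee (k : ι) : rf (ee F k) = sg F {k} := by
  apply LinearEquiv.ext
  intro x
  rw [rf_apply (ee_norm k), dot_ee]
  funext j
  rw [Pi.sub_apply, Pi.smul_apply, smul_eq_mul, sg_apply]
  by_cases h : j = k
  · subst h; simp [ee]; ring
  · simp [ee, Pi.single_apply, h]

/-- roots of `X` -/
def Root (X : Subgroup ((ι → F) ≃ₗ[F] (ι → F))) (u : ι → F) : Prop :=
  u ⬝ᵥ u = 1 ∧ ∀ k, rf u * rf (ee F k) ∈ X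

/-- the basic situation -/
structure Base (X : Subgroup ((ι → F) ≃ₗ[F] (ι → F))) : Prop where
  two : (2 : F) ≠ 0
  iso : ∀ g ∈ X, IsIso g
  hsg : ∀ i j, i ≠ j → sg F {i, j} ∈ X
  hc3 : ∀ i j k, i ≠ j → i ≠ k → j ≠ k → c3 F i j k ∈ X

variable {X : Subgroup ((ι → F) ≃ₗ[F] (ι → F))}

theorem sg_single_mul {k l : ι} (h : k ≠ l) : sg F {k} * sg F {l} = sg F {k, l} := by
  rw [sg_mul]
  congr 1
  ext c
  simp only [Finset.mem_symmDiff, Finset.mem_singleton, Finset.mem_insert]
  constructor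
  · rintro (⟨h1, _⟩ | ⟨h1, _⟩)
    · exact Or.inl h1
    · exact Or.inr h1
  · rintro (rfl | rfl)
    · exact Or.inl ⟨rfl, h⟩
    · exact Or.inr ⟨rfl, Ne.symm h⟩

theorem Base.rfee (B : Base X) (k l : ι) : rf (ee F k) * rf (ee F l) ∈ X := by
  rw [rf_ee, rf_ee]
  by_cases h : k = l
  · subst h; rw [sg_mul_self]; exact X.one_mem
  · rw [sg_single_mul h]; exact B.hsg k l h

theorem Base.root_of (B : Base X) {u : ι → F} (h : u ⬝ᵥ u = 1) {k : ι} (hk : rf u * rf (ee F k) ∈ X) :
    Root X u := by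
  refine ⟨h, fun l => ?_⟩
  have e : rf u * rf (ee F l) = (rf u * rf (ee F k)) * (rf (ee F k) * rf (ee F l)) := by
    calc rf u * rf (ee F l) = rf u * 1 * rf (ee F l) := by rw [mul_one]
      _ = rf u * (rf (ee F k) * rf (ee F k)) * rf (ee F l) := by rw [rf_mul_self (ee_norm k)]
      _ = _ := by simp only [mul_assoc]
  rw [e]
  exact X.mul_mem hk (B.rfee k l)

theorem Base.root_ee (B : Base X) (i : ι) : Root X (ee F i) := ⟨ee_norm i, fun k => B.rfee i k⟩

theorem Root.neg {u : ι → F} (h : Root X u) : Root X (-u) := by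
  refine ⟨by rw [neg_dotProduct, dotProduct_neg, neg_neg, h.1], fun k => ?_⟩
  rw [rf_neg h.1]; exact h.2 k

theorem Base.mul_mem_of_roots (B : Base X) {u v : ι → F} (hu : Root X u) (hv : Root X v) [Nonempty ι] :
    rf u * rf v ∈ X := by
  obtain ⟨k⟩ := ‹Nonempty ι›
  have e : rf u * rf v = (rf u * rf (ee F k)) * (rf v * rf (ee F k))⁻¹ := by
    rw [_root_.mul_inv_rev, rf_inv hv.1]; group
  rw [e]
  exact X.mul_mem (hu.2 k) (X.inv_mem (hv.2 k))

/-- roots are closed under conjugation by elements of `X` normalising a root reflection -/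
theorem Base.root_map' (B : Base X) {g : (ι → F) ≃ₗ[F] (ι → F)} (hg : g ∈ X) {u v : ι → F}
    (hu : Root X u) (hv : Root X v) (hgv : Root X (g v)) : Root X (g u) := by
  have hI := B.iso g hg
  by_cases hne : Nonempty ι
  · obtain ⟨k⟩ := hne
    haveI : Nonempty ι := ⟨k⟩
    refine B.root_of (k := k) (by rw [hI, hu.1]) ?_
    have e : rf (g u) * rf (ee F k) = (g * (rf u * rf v) * g⁻¹) * (rf (g v) * rf (ee F k)) := by
      rw [hI.map_rf hu.1, hI.map_rf hv.1]
      have h1 := rf_mul_self hv.1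
      calc g * rf u * g⁻¹ * rf (ee F k) = g * rf u * 1 * g⁻¹ * rf (ee F k) := by rw [mul_one]
        _ = g * rf u * (rf v * rf v) * g⁻¹ * rf (ee F k) := by rw [h1]
        _ = _ := by group
    rw [e]
    exact X.mul_mem (X.mul_mem (X.mul_mem hg (B.mul_mem_of_roots hu hv)) (X.inv_mem hg)) (hgv.2 k)
  · exact ⟨by rw [hI, hu.1], fun k => absurd ⟨k⟩ hne⟩

theorem Base.root_map (B : Base X) {g : (ι → F) ≃ₗ[F] (ι → F)} (hg : g ∈ X) {m : ι}
    (hm : g (ee F m) = ee F m ∨ g (ee F m) = - ee F m) {u : ι → F} (hu : Root X u) : Root X (g u) := by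
  apply B.root_map' hg hu (B.root_ee m)
  rcases hm with h | h <;> rw [h]
  · exact B.root_ee m
  · exact (B.root_ee m).neg

theorem Base.root_rf (B : Base X) {u v : ι → F} (hu : Root X u) (hv : Root X v) : Root X (rf u v) := by
  refine ⟨by rw [rf_isIso hu.1, hv.1], fun k => ?_⟩
  have e : rf (rf u v) * rf (ee F k) = (rf u * rf (ee F k)) * (rf v * rf (ee F k))⁻¹ * (rf u * rf (ee F k)) := by
    rw [(rf_isIso hu.1).map_rf hv.1, _root_.mul_inv_rev, rf_inv hu.1, rf_inv hv.1]
    have h1 := rf_mul_self (ee_norm (F := F) k)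
    have h3 : rf (ee F k) * (rf (ee F k))⁻¹ = 1 := mul_inv_cancel _
    group
  rw [e]
  exact X.mul_mem (X.mul_mem (hu.2 k) (X.inv_mem (hv.2 k))) (hu.2 k)

theorem exists_not_mem (T : Finset ι) (h : T.card < Fintype.card ι) : ∃ k, k ∉ T := by
  obtain ⟨k, hk⟩ := Finset.exists_mem_notMem_of_card_lt_card (s := T) (t := Finset.univ)
    (by rwa [Finset.card_univ])
  exact ⟨k, hk.2⟩

theorem Base.root_sg (B : Base X) (hn : 3 ≤ Fintype.card ι) {i j : ι} (hij : i ≠ j) {u : ι → F}
    (hu : Root X u) : Root X (sg F {i, j} u) := by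
  obtain ⟨k, hk⟩ := exists_not_mem ({i, j} : Finset ι) (lt_of_le_of_lt Finset.card_le_two (by omega))
  exact B.root_map (B.hsg i j hij) (m := k) (Or.inl (sg_ee_not_mem hk)) hu

theorem Base.root_c3 (B : Base X) (hn : 4 ≤ Fintype.card ι) {i j k : ι} (hij : i ≠ j) (hik : i ≠ k)
    (hjk : j ≠ k) {u : ι → F} (hu : Root X u) : Root X (c3 F i j k u) := by
  obtain ⟨m, hm⟩ := exists_not_mem ({i, j, k} : Finset ι) (lt_of_le_of_lt Finset.card_le_three (by omega))
  simp only [Finset.mem_insert, Finset.mem_singleton, not_or] at hm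
  exact B.root_map (B.hc3 i j k hij hik hjk) (m := m) (Or.inl (c3_other hm.1 hm.2.1 hm.2.2)) hu

/-- support at most two -/
def Supp2 (u : ι → F) : Prop := ∃ a b, ∀ c, c ≠ a → c ≠ b → u c = 0

theorem supp2_three {u : ι → F} (h : Supp2 u) {a b c : ι} (hab : a ≠ b) (hac : a ≠ c) (hbc : b ≠ c)
    (ha : u a ≠ 0) (hb : u b ≠ 0) : u c = 0 := by
  obtain ⟨x, y, hxy⟩ := h
  by_contra hc
  have h1 : a = x ∨ a = y := by
    by_contra h; push Not at h; exact ha (hxy a h.1 h.2)
  have h2 : b = x ∨ b = y := by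
    by_contra h; push Not at h; exact hb (hxy b h.1 h.2)
  have h3 : c = x ∨ c = y := by
    by_contra h; push Not at h; exact hc (hxy c h.1 h.2)
  rcases h1 with rfl | rfl <;> rcases h2 with rfl | rfl <;> rcases h3 with rfl | rfl <;>
    first | exact hab rfl | exact hac rfl | exact hbc rfl

theorem eq_two_of_supp {u : ι → F} {m l : ι} (hml : m ≠ l) (h : ∀ c, c ≠ m → c ≠ l → u c = 0) :
    u = (u m) • ee F m + (u l) • ee F l := by
  funext c
  rw [Pi.add_apply, Pi.smul_apply, Pi.smul_apply, smul_eq_mul, smul_eq_mul]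
  by_cases h1 : c = m
  · subst h1; rw [ee_same, ee_ne hml]; ring
  · by_cases h2 : c = l
    · subst h2; rw [ee_same, ee_ne h1]; ring
    · rw [ee_ne h1, ee_ne h2, h c h1 h2]; ring

theorem Base.move_pair (B : Base X) (hn : 7 ≤ Fintype.card ι) {m l k k' : ι} (hml : m ≠ l) (hkk : k ≠ k')
    {β γ : F} (hu : Root X (β • ee F m + γ • ee F l)) : Root X (β • ee F k + γ • ee F k') := by
  obtain ⟨r, hr⟩ := exists_not_mem ({m, l, k, k'} : Finset ι)
    (lt_of_le_of_lt Finset.card_le_four (by omega))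
  obtain ⟨s, hs⟩ := exists_not_mem ({r, m, l, k, k'} : Finset ι)
    (lt_of_le_of_lt Finset.card_le_five (by omega))
  simp only [Finset.mem_insert, Finset.mem_singleton, not_or] at hr hs
  obtain ⟨hrm, hrl, hrk, hrk'⟩ := hr
  obtain ⟨hsr, hsm, hsl, hsk, hsk'⟩ := hs
  have h1 := B.root_c3 (by omega) (Ne.symm hrm) (Ne.symm hsm) (Ne.symm hsr) hu
  rw [map_add, map_smul, map_smul, c3_left (Ne.symm hrm) (Ne.symm hsm),
    c3_other (Ne.symm hml) (Ne.symm hrl) (Ne.symm hsl)] at h1
  have h2 := B.root_c3 (by omega) (Ne.symm hsl) (Ne.symm hml) hsm h1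
  rw [map_add, map_smul, map_smul, c3_left (Ne.symm hsl) (Ne.symm hml), c3_other hrl (Ne.symm hsr) hrm] at h2
  have h3 := B.root_c3 (by omega) hrk hrk' hkk h2
  rw [map_add, map_smul, map_smul, c3_left hrk hrk', c3_other hsr hsk hsk'] at h3
  have h4 := B.root_c3 (by omega) hsk' hsr (Ne.symm hrk') h3
  rw [map_add, map_smul, map_smul, c3_left hsk' hsr, c3_other (Ne.symm hsk) hkk (Ne.symm hrk)] at h4
  exact h4

section Two

variable (B : Base X) (hn : 9 ≤ Fintype.card ι) (hT : ∀ u, Root X u → Supp2 u)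

include B hn hT

theorem half_of_root {u : ι → F} (hu : Root X u) {m l : ι} (hml : m ≠ l) (hm : u m ≠ 0) (hl : u l ≠ 0) :
    2 * (u l) ^ 2 = 1 := by
  have h0 : ∀ c, c ≠ m → c ≠ l → u c = 0 := fun c h1 h2 =>
    supp2_three (hT u hu) hml (Ne.symm h1) (Ne.symm h2) hm hl
  have hu2 := eq_two_of_supp hml h0
  obtain ⟨p, hp⟩ := exists_not_mem ({m, l} : Finset ι) (lt_of_le_of_lt Finset.card_le_two (by omega))
  simp only [Finset.mem_insert, Finset.mem_singleton, not_or] at hp
  have h1 := B.root_c3 (by omega) hml (Ne.symm hp.1) (Ne.symm hp.2) hu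
  have e1 : c3 F m l p u = (u m) • ee F l + (u l) • ee F p := by
    conv_lhs => rw [hu2]
    rw [map_add, map_smul, map_smul, c3_left hml (Ne.symm hp.1), c3_mid (Ne.symm hp.1) (Ne.symm hp.2)]
  rw [e1] at h1
  have h2 := B.root_rf hu h1
  have e2 : ((u m) • ee F l + (u l) • ee F p) ⬝ᵥ u = u m * u l := by
    rw [add_dotProduct, smul_dotProduct, smul_dotProduct, ee_dot, ee_dot, h0 p hp.1 hp.2]
    simp
  have h3 := supp2_three (hT _ h2) (a := m) (b := p) (c := l) (Ne.symm hp.1) hml hp.2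
  rw [rf_apply hu.1, e2] at h3
  simp only [Pi.sub_apply, Pi.add_apply, Pi.smul_apply, smul_eq_mul] at h3
  rw [ee_same, ee_ne hml, ee_ne (Ne.symm hp.1), ee_ne hp.2, ee_same, ee_ne (Ne.symm hp.2), h0 p hp.1 hp.2] at h3
  have h4 := h3 (by
      have : u m * 0 + u l * 0 - 2 * (u m * u l) * u m = - (2 * (u m * u l * u m)) := by ring
      rw [this]
      exact neg_ne_zero.2 (mul_ne_zero B.two (mul_ne_zero (mul_ne_zero hm hl) hm)))
    (by simpa using hl)
  have h5 : u m * (1 - 2 * (u l) ^ 2) = 0 := by linear_combination h4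
  have h6 := (mul_eq_zero.1 h5).resolve_left hm
  linear_combination -h6

theorem mono_of_fix_two {h : (ι → F) ≃ₗ[F] (ι → F)} (hX : h ∈ X) {i j : ι} (hij : i ≠ j)
    (hi : h (ee F i) = ee F i) (hj : h (ee F j) = ee F j) : Mono h := by
  have hI := B.iso h hX
  have hinv : ∀ {i : ι}, h (ee F i) = ee F i → h⁻¹ (ee F i) = ee F i := by
    intro i hi
    have : h⁻¹ (h (ee F i)) = h⁻¹ (ee F i) := by rw [hi]
    rw [← LinearEquiv.mul_apply, inv_mul_cancel] at this
    exact this.symm
  apply mono_of_forall B.two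
  intro k
  by_cases hki : k = i
  · subst hki; exact ⟨_, Or.inl hi⟩
  by_cases hkj : k = j
  · subst hkj; exact ⟨_, Or.inl hj⟩
  have hroot : Root X (h (ee F k)) := B.root_map hX (m := i) (Or.inl hi) (B.root_ee k)
  have hne : h (ee F k) ≠ 0 := by
    intro h0
    have := hroot.1
    rw [h0, dotProduct_zero] at this
    exact zero_ne_one this
  obtain ⟨m, hm⟩ := Function.ne_iff.1 hne
  rw [Pi.zero_apply] at hm
  by_cases hex : ∃ l, l ≠ m ∧ h (ee F k) l ≠ 0
  · exfalso
    obtain ⟨l, hlm, hl⟩ := hex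
    have h0 : ∀ c, c ≠ m → c ≠ l → h (ee F k) c = 0 := fun c h1 h2 =>
      supp2_three (hT _ hroot) (Ne.symm hlm) (Ne.symm h1) (Ne.symm h2) hm hl
    have hu2 := eq_two_of_supp (Ne.symm hlm) h0
    set β := h (ee F k) m with hβ
    set γ := h (ee F k) l with hγ
    -- supports of `h⁻¹ e_m`, `h⁻¹ e_l`
    have hrm : Root X (h⁻¹ (ee F m)) := B.root_map (X.inv_mem hX) (m := i) (Or.inl (hinv hi)) (B.root_ee m)
    have hrl : Root X (h⁻¹ (ee F l)) := B.root_map (X.inv_mem hX) (m := i) (Or.inl (hinv hi)) (B.root_ee l)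
    obtain ⟨a1, a2, ha⟩ := hT _ hrm
    obtain ⟨b1, b2, hb⟩ := hT _ hrl
    obtain ⟨k', hk'⟩ := exists_not_mem (({a1, a2, b1, b2} : Finset ι) ∪ {i, j, k})
      (lt_of_le_of_lt (Finset.card_union_le _ _) (by
        have h1 : ({a1, a2, b1, b2} : Finset ι).card ≤ 4 := Finset.card_le_four
        have h2 : ({i, j, k} : Finset ι).card ≤ 3 := Finset.card_le_three
        omega))
    simp only [Finset.mem_union, Finset.mem_insert, Finset.mem_singleton, not_or] at hk'
    obtain ⟨⟨h1, h2, h3, h4⟩, h5, h6, h7⟩ := hk'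
    have hm' : h (ee F k') m = 0 := by rw [hI.apply_eq, ee_dot]; exact ha k' h1 h2
    have hl' : h (ee F k') l = 0 := by rw [hI.apply_eq, ee_dot]; exact hb k' h3 h4
    have hne' : h (ee F k') ≠ 0 := by
      intro h0
      have := hI (ee F k') (ee F k')
      rw [h0, dotProduct_zero, ee_norm] at this
      exact zero_ne_one this
    obtain ⟨r, hr⟩ := Function.ne_iff.1 hne'
    rw [Pi.zero_apply] at hr
    have hrm' : r ≠ m := fun h => hr (h ▸ hm')
    have hrl' : r ≠ l := fun h => hr (h ▸ hl')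
    have hx : Root X (β • ee F k + γ • ee F k') :=
      B.move_pair (by omega) (Ne.symm hlm) (Ne.symm h7) (by rw [← hu2]; exact hroot)
    have hx' := B.root_map hX (m := i) (Or.inl hi) hx
    have h8 := supp2_three (hT _ hx') (a := m) (b := l) (c := r) (Ne.symm hlm) (Ne.symm hrm') (Ne.symm hrl')
    rw [map_add, map_smul, map_smul] at h8
    simp only [Pi.add_apply, Pi.smul_apply, smul_eq_mul] at h8
    rw [hm', hl', h0 r hrm' hrl'] at h8
    have h9 := h8 (by rw [← hβ]; simpa using hm) (by rw [← hγ]; simpa using ⟨hm, hl⟩)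
    have : γ * h (ee F k') r = 0 := by linear_combination h9
    rcases mul_eq_zero.1 this with h' | h'
    · exact hl h'
    · exact hr h'
  · push Not at hex
    refine ⟨m, ?_⟩
    have e1 : h (ee F k) = (h (ee F k) m) • ee F m := by
      funext c
      rw [Pi.smul_apply, smul_eq_mul]
      by_cases hc : c = m
      · subst hc; rw [ee_same, mul_one]
      · rw [ee_ne hc, mul_zero]; exact hex c hc
    have e2 : (h (ee F k) m) ^ 2 = 1 := by
      have h3 := hroot.1
      have h4 : h (ee F k) ⬝ᵥ h (ee F k) = (h (ee F k) m) ^ 2 := by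
        conv_lhs => rw [e1]
        rw [dotProduct_smul, dot_ee, Pi.smul_apply, ee_same, smul_eq_mul, smul_eq_mul]; ring
      rw [← h4, h3]
    rcases sq_eq_one_iff_of_ne_zero' e2 with h3 | h3
    · left; rw [e1, h3, one_smul]
    · right; rw [e1, h3, neg_smul, one_smul]

theorem mono_of_comm {g : (ι → F) ≃ₗ[F] (ι → F)} (hX : g ∈ X) {i j : ι} (hij : i ≠ j)
    (hcomm : Commute g (sg F {i, j})) : Mono g := by
  classical
  have hI := B.iso g hX
  have h2 := B.two
  have zero_out : ∀ a, a ∉ ({i, j} : Finset ι) → ∀ c ∈ ({i, j} : Finset ι), g (ee F a) c = 0 := by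
    intro a ha c hc
    have h := congrArg (fun f : (ι → F) ≃ₗ[F] (ι → F) => f (ee F a) c) hcomm.eq
    simp only [LinearEquiv.mul_apply] at h
    rw [sg_ee_not_mem ha, sg_apply, if_pos hc] at h
    have h' : 2 * g (ee F a) c = 0 := by linear_combination h
    exact (mul_eq_zero.1 h').resolve_left h2
  have zero_in : ∀ a, a ∈ ({i, j} : Finset ι) → ∀ c, c ∉ ({i, j} : Finset ι) → g (ee F a) c = 0 := by
    intro a ha c hc
    have h := congrArg (fun f : (ι → F) ≃ₗ[F] (ι → F) => f (ee F a) c) hcomm.eq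
    simp only [LinearEquiv.mul_apply] at h
    rw [sg_ee_mem ha, map_neg, Pi.neg_apply, sg_apply, if_neg hc] at h
    have h' : 2 * g (ee F a) c = 0 := by linear_combination -h
    exact (mul_eq_zero.1 h').resolve_left h2
  have perms : ∀ κ ∈ X, (∀ a ∈ ({i, j} : Finset ι), κ (ee F a) = ee F a) → Perms (fun a => g (ee F a)) κ := by
    intro κ hκ hfix a
    have hfix' : ∀ a ∈ ({i, j} : Finset ι), (g⁻¹ * κ * g) (ee F a) = ee F a := by
      intro a ha
      rw [LinearEquiv.mul_apply, LinearEquiv.mul_apply, fix_supported hfix (zero_in a ha),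
        ← LinearEquiv.mul_apply, inv_mul_cancel]
      rfl
    obtain ⟨σ, hσ⟩ := mono_of_fix_two B hn hT (X.mul_mem (X.mul_mem (X.inv_mem hX) hκ) hX) hij
      (hfix' i (by simp)) (hfix' j (by simp))
    refine ⟨σ a, ?_⟩
    have key : κ (g (ee F a)) = g ((g⁻¹ * κ * g) (ee F a)) := by
      rw [← LinearEquiv.mul_apply, ← LinearEquiv.mul_apply]
      congr 1
      group
    rcases hσ a with h | h
    · left
      show κ (g (ee F a)) = _
      rw [key, h]
    · right
      show κ (g (ee F a)) = _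
      rw [key, h, map_neg]
  have hJ : ({i, j} : Finset ι).card ≤ 2 := Finset.card_le_two
  have core := frame_core h2 (fun a => g (ee F a)) (fun a b => hI.ee_dot_ee a b) {i, j} (by omega)
    (by
      intro k l hk hl hkl
      apply perms _ (B.hsg k l hkl)
      intro a ha
      apply sg_ee_not_mem
      simp only [Finset.mem_insert, Finset.mem_singleton, not_or] at hk hl ha ⊢
      rcases ha with rfl | rfl
      · exact ⟨Ne.symm hk.1, Ne.symm hl.1⟩
      · exact ⟨Ne.symm hk.2, Ne.symm hl.2⟩)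
    (by
      intro k l m hk hl hm hkl hkm hlm
      apply perms _ (B.hc3 k l m hkl hkm hlm)
      intro a ha
      apply c3_other
      · exact fun h => hk (h ▸ ha)
      · exact fun h => hl (h ▸ ha)
      · exact fun h => hm (h ▸ ha))
  have out : ∀ a, a ∉ ({i, j} : Finset ι) → ∃ k, g (ee F a) = ee F k ∨ g (ee F a) = - ee F k := by
    intro a ha
    rcases core a with ⟨k, _, hk⟩ | h
    · exact ⟨k, hk⟩
    · exfalso
      have h0 : g (ee F a) = 0 := by
        funext c
        by_cases hc : c ∈ ({i, j} : Finset ι)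
        · exact zero_out a ha c hc
        · exact h c hc
      have := hI (ee F a) (ee F a)
      rw [h0, dotProduct_zero, ee_norm] at this
      exact zero_ne_one this
  obtain ⟨a, ha⟩ := exists_not_mem ({i, j} : Finset ι) (lt_of_le_of_lt hJ (by omega))
  obtain ⟨ka, hka⟩ := out a ha
  have hga : Root X (g (ee F a)) := by
    rcases hka with h | h <;> rw [h]
    · exact B.root_ee _
    · exact (B.root_ee _).neg
  have hmap : ∀ u, Root X u → Root X (g u) := fun u hu => B.root_map' hX hu (B.root_ee a) hga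
  have hkaJ : ka ∉ ({i, j} : Finset ι) := by
    intro hmem
    have h0 := zero_out a ha ka hmem
    rcases hka with h | h
    · rw [h, ee_same] at h0; exact one_ne_zero h0
    · rw [h, Pi.neg_apply, ee_same] at h0; exact one_ne_zero (neg_eq_zero.1 h0)
  have inn : ∀ c ∈ ({i, j} : Finset ι), ∃ k, g (ee F c) = ee F k ∨ g (ee F c) = - ee F k := by
    intro c hc
    have hrc := hmap _ (B.root_ee c)
    have hz := zero_in c hc
    have hsupp : ∀ d, d ≠ i → d ≠ j → g (ee F c) d = 0 := by
      intro d h1 h3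
      apply hz d
      simp only [Finset.mem_insert, Finset.mem_singleton, not_or]
      exact ⟨h1, h3⟩
    have hu2 := eq_two_of_supp hij hsupp
    have norm2 : (g (ee F c) i) ^ 2 + (g (ee F c) j) ^ 2 = 1 := by
      have h3 := hrc.1
      have h4 : g (ee F c) ⬝ᵥ g (ee F c) = (g (ee F c) i) ^ 2 + (g (ee F c) j) ^ 2 := by
        conv_lhs =>
          rw [hu2]
        rw [dotProduct_add, dotProduct_smul, dotProduct_smul, dot_ee, dot_ee]
        simp only [Pi.add_apply, Pi.smul_apply, smul_eq_mul]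
        rw [ee_same, ee_same, ee_ne hij, ee_ne (Ne.symm hij)]
        ring
      rw [← h4, h3]
    by_cases hi0 : g (ee F c) i = 0
    · refine ⟨j, ?_⟩
      rw [hi0] at norm2
      have e2 : (g (ee F c) j) ^ 2 = 1 := by linear_combination norm2
      rw [hi0, zero_smul, zero_add] at hu2
      rcases sq_eq_one_iff_of_ne_zero' e2 with h3 | h3
      · left; rw [hu2, h3, one_smul]
      · right; rw [hu2, h3, neg_smul, one_smul]
    · by_cases hj0 : g (ee F c) j = 0
      · refine ⟨i, ?_⟩
        rw [hj0] at norm2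
        have e2 : (g (ee F c) i) ^ 2 = 1 := by linear_combination norm2
        rw [hj0, zero_smul, add_zero] at hu2
        rcases sq_eq_one_iff_of_ne_zero' e2 with h3 | h3
        · left; rw [hu2, h3, one_smul]
        · right; rw [hu2, h3, neg_smul, one_smul]
      · exfalso
        have hca : c ≠ a := fun h => ha (h ▸ hc)
        have hx : Root X ((g (ee F c) i) • ee F c + (g (ee F c) j) • ee F a) :=
          B.move_pair (by omega) hij hca (by rw [← hu2]; exact hrc)
        have hx' := hmap _ hx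
        simp only [Finset.mem_insert, Finset.mem_singleton, not_or] at hkaJ
        have h8 := supp2_three (hT _ hx') (a := i) (b := j) (c := ka) hij (Ne.symm hkaJ.1) (Ne.symm hkaJ.2)
        rw [map_add, map_smul, map_smul] at h8
        simp only [Pi.add_apply, Pi.smul_apply, smul_eq_mul] at h8
        rw [zero_out a ha i (by simp), zero_out a ha j (by simp), hsupp ka hkaJ.1 hkaJ.2] at h8
        have h9 := h8 (by simpa using hi0) (by simpa using ⟨hi0, hj0⟩)
        have h10 : g (ee F a) ka ≠ 0 := by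
          rcases hka with h | h <;> rw [h]
          · rw [ee_same]; exact one_ne_zero
          · rw [Pi.neg_apply, ee_same]; exact neg_ne_zero.2 one_ne_zero
        have : g (ee F c) j * g (ee F a) ka = 0 := by linear_combination h9
        rcases mul_eq_zero.1 this with h' | h'
        · exact hj0 h'
        · exact h10 h'
  apply mono_of_forall h2
  intro c
  by_cases hc : c ∈ ({i, j} : Finset ι)
  · exact inn c hc
  · exact out c hc

/-- **Part II**: if all roots have support at most two, the group is monomial. -/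
theorem mono_of_roots (hfin : ∀ g ∈ X, IsOfFinOrder g) : ∀ x ∈ X, Mono x :=
  Rig.mono_all ⟨B.two, hn, B.iso, B.hsg, B.hc3, fun g hg i j hij hc => mono_of_comm B hn hT hg hij hc⟩ hfin

end Two

end Cfsg.Agent.H928
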