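import Cfsg.Agent.H928.FrameF

/-!
# Orthogonal frames VII: from three coordinates to all norm one vectors
-/

set_option autoImplicit false
set_option linter.unusedSectionVars false
set_option linter.unusedSimpArgs false
set_option linter.unusedVariables false

namespace Cfsg.Agent.H928

open Matrix

variable {ι : Type*} [Fintype ι] [DecidableEq ι] {F : Type*} [Field F]

/-- a binary diagonal form over a finite field of odd order is universal -/
theorem exists_sq_add [Finite F] (h2 : (2 : F) ≠ 0) {a b : F} (ha : a ≠ 0) (hb : b ≠ 0) (c : F) :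
    ∃ x y : F, a * x ^ 2 + b * y ^ 2 = c := by
  classical
  have := Fintype.ofFinite F
  have hchar : ringChar F ≠ 2 := by
    intro h
    apply h2
    have := (ringChar.spec F 2).2 (by rw [h])
    exact_mod_cast this
  have hodd := FiniteField.odd_card_of_char_ne_two hchar
  obtain ⟨x, y, h⟩ := FiniteField.exists_root_sum_quadratic (R := F)
    (f := Polynomial.C a * Polynomial.X ^ 2 + Polynomial.C (-c))
    (g := Polynomial.C b * Polynomial.X ^ 2)
    (by
      rw [Polynomial.degree_add_C (by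
        rw [Polynomial.degree_C_mul_X_pow 2 ha]; norm_num), Polynomial.degree_C_mul_X_pow 2 ha]
      rfl)
    (by rw [Polynomial.degree_C_mul_X_pow 2 hb]; rfl) hodd
  refine ⟨x, y, ?_⟩
  simp only [Polynomial.eval_add, Polynomial.eval_mul, Polynomial.eval_C, Polynomial.eval_pow,
    Polynomial.eval_X] at h
  linear_combination h

/-- the reflection in a non-isotropic vector -/
noncomputable def rg (u : ι → F) : (ι → F) ≃ₗ[F] (ι → F) :=
  open Classical in
  if h : u ⬝ᵥ u ≠ 0 then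
    LinearEquiv.ofInvolutive
      (LinearMap.id - (2 * (u ⬝ᵥ u)⁻¹ : F) • (dotProductBilin F F u).smulRight u) (by
        intro x
        simp only [LinearMap.sub_apply, LinearMap.id_apply, LinearMap.smul_apply, LinearMap.smulRight_apply]
        have e : ∀ y : ι → F, (dotProductBilin F F u) y = u ⬝ᵥ y := fun y => rfl
        rw [e, e, dotProduct_sub, dotProduct_smul, dotProduct_smul]
        simp only [smul_eq_mul, smul_smul]
        have : 2 * (u ⬝ᵥ u)⁻¹ * (u ⬝ᵥ x - 2 * (u ⬝ᵥ u)⁻¹ * (u ⬝ᵥ x * (u ⬝ᵥ u))) =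
            - (2 * (u ⬝ᵥ u)⁻¹ * (u ⬝ᵥ x)) := by
          field_simp
          ring
        rw [this]
        module)
  else 1

theorem rg_apply {u : ι → F} (h : u ⬝ᵥ u ≠ 0) (x : ι → F) :
    rg u x = x - (2 * (x ⬝ᵥ u) / (u ⬝ᵥ u)) • u := by
  rw [rg, dif_pos h]
  show x - (2 * (u ⬝ᵥ u)⁻¹ : F) • ((u ⬝ᵥ x) • u) = _
  rw [smul_smul, dotProduct_comm u x]
  congr 2
  field_simp

theorem rg_mul_self {u : ι → F} (h : u ⬝ᵥ u ≠ 0) : rg u * rg u = 1 := by
  apply LinearEquiv.ext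
  intro x
  rw [LinearEquiv.mul_apply, rg_apply h, rg_apply h, sub_dotProduct, smul_dotProduct]
  show _ = x
  simp only [smul_eq_mul]
  have : 2 * (x ⬝ᵥ u - 2 * (x ⬝ᵥ u) / (u ⬝ᵥ u) * (u ⬝ᵥ u)) / (u ⬝ᵥ u) = - (2 * (x ⬝ᵥ u) / (u ⬝ᵥ u)) := by
    field_simp
    ring
  rw [this]
  module

theorem rg_smul {u : ι → F} (h : u ⬝ᵥ u ≠ 0) {c : F} (hc : c ≠ 0) : rg (c • u) = rg u := by
  have h' : (c • u) ⬝ᵥ (c • u) ≠ 0 := by
    rw [smul_dotProduct, dotProduct_smul]
    simp only [smul_eq_mul]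
    exact mul_ne_zero hc (mul_ne_zero hc h)
  apply LinearEquiv.ext
  intro x
  rw [rg_apply h, rg_apply h', smul_dotProduct, dotProduct_smul, dotProduct_smul, smul_smul]
  congr 2
  simp only [smul_eq_mul]
  field_simp

theorem rg_eq_rf {u : ι → F} (h : u ⬝ᵥ u = 1) : rg u = rf u := by
  apply LinearEquiv.ext
  intro x
  rw [rf_apply h, rg_apply (by rw [h]; exact one_ne_zero), h, div_one]

/-- a rotation with axes of the same norm is a rotation with norm one axes -/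
theorem rg_mul_rg {a b : ι → F} {δ t l m : F} (ha : a ⬝ᵥ a = δ) (hb : b ⬝ᵥ b = δ) (hab : a ⬝ᵥ b = t) (hδ : δ ≠ 0)
    (hlm : δ * l ^ 2 + 2 * t * l * m + δ * m ^ 2 = 1) :
    (l • a + m • b) ⬝ᵥ (l • a + m • b) = 1 ∧
    (((l * δ + 2 * m * t) / δ) • b - m • a) ⬝ᵥ (((l * δ + 2 * m * t) / δ) • b - m • a) = 1 ∧
    rg a * rg b = rf (l • a + m • b) * rf (((l * δ + 2 * m * t) / δ) • b - m • a) := by
  have hba : b ⬝ᵥ a = t := by rw [dotProduct_comm]; exact hab
  have n1 : (l • a + m • b) ⬝ᵥ (l • a + m • b) = 1 := by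
    simp only [add_dotProduct, dotProduct_add, smul_dotProduct, dotProduct_smul, smul_eq_mul, ha, hb, hab, hba]
    linear_combination hlm
  have n2 : (((l * δ + 2 * m * t) / δ) • b - m • a) ⬝ᵥ (((l * δ + 2 * m * t) / δ) • b - m • a) = 1 := by
    simp only [sub_dotProduct, dotProduct_sub, smul_dotProduct, dotProduct_smul, smul_eq_mul, ha, hb, hab, hba]
    field_simp
    linear_combination δ * hlm
  refine ⟨n1, n2, ?_⟩
  have hra : a ⬝ᵥ a ≠ 0 := by rw [ha]; exact hδ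
  have hrb : b ⬝ᵥ b ≠ 0 := by rw [hb]; exact hδ
  apply LinearEquiv.ext
  intro z
  rw [LinearEquiv.mul_apply, LinearEquiv.mul_apply, rg_apply hrb, rg_apply hra, rf_apply n2, rf_apply n1]
  simp only [add_dotProduct, dotProduct_add, sub_dotProduct, dotProduct_sub, smul_dotProduct, dotProduct_smul,
    smul_eq_mul, ha, hb, hab, hba]
  generalize z ⬝ᵥ a = α
  generalize z ⬝ᵥ b = β
  obtain ⟨K, hK, hK'⟩ : ∃ K : F, K * δ = l * δ + 2 * m * t ∧ (l * δ + 2 * m * t) / δ = K :=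
    ⟨_, div_mul_cancel₀ _ hδ, rfl⟩
  rw [hK']
  obtain ⟨Z, hZ⟩ : ∃ Z, Z = K * β - m * α := ⟨_, rfl⟩
  rw [← hZ]
  have hs : δ * (l * (K * t - m * δ) + m * (K * δ - m * t)) = t := by
    linear_combination t * hlm + (t * l + m * δ) * hK
  have hZ' : Z * δ = (l * δ + 2 * m * t) * β - m * α * δ := by
    rw [hZ]; linear_combination β * hK
  have eb : 2 * β / δ = 2 * Z * K +
      (2 * (l * (α - 2 * Z * (K * t - m * δ)) + m * (β - 2 * Z * (K * δ - m * t)))) * m := by
    rw [div_eq_iff hδ, hZ]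
    rw [hZ] at hZ'
    linear_combination (-(2 * (K * β - m * α) + 2 * l * β)) * hK + 4 * m * (K * β - m * α) * hs - 2 * β * hlm
  have ea : 2 * (α - 2 * β / δ * t) / δ = - (2 * Z * m) +
      (2 * (l * (α - 2 * Z * (K * t - m * δ)) + m * (β - 2 * Z * (K * δ - m * t)))) * l := by
    have : 2 * (α - 2 * β / δ * t) / δ = (2 * (α * δ - 2 * β * t)) / δ ^ 2 := by
      field_simp
    rw [this, div_eq_iff (pow_ne_zero 2 hδ)]
    linear_combination 4 * l * Z * δ * hs + (2 * m * δ + 4 * l * t) * hZ' - (2 * α * δ - 4 * t * β) * hlm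
  rw [ea, eb]
  module

variable {X : Subgroup ((ι → F) ≃ₗ[F] (ι → F))}

/-- all norm one vectors supported in `J` are roots -/
def AllRoots (X : Subgroup ((ι → F) ≃ₗ[F] (ι → F))) (J : Finset ι) : Prop :=
  ∀ z : ι → F, (∀ k, k ∉ J → z k = 0) → z ⬝ᵥ z = 1 → Root X z

theorem Base.good_pair (B : Base X) [Finite F] {J : Finset ι} (hJ : AllRoots X J) {a b : ι → F}
    (ha0 : ∀ k, k ∉ J → a k = 0) (hb0 : ∀ k, k ∉ J → b k = 0) {δ t : F} (ha : a ⬝ᵥ a = δ) (hb : b ⬝ᵥ b = δ)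
    (hab : a ⬝ᵥ b = t) (hδ : δ ≠ 0) (hδt : δ ^ 2 ≠ t ^ 2) : rg a * rg b ∈ X := by
  have hne : Nonempty ι := by
    by_contra h
    rw [not_nonempty_iff] at h
    apply hδ
    rw [← ha]
    simp [dotProduct]
  have h3 : δ - t ^ 2 / δ ≠ 0 := by
    intro h
    apply hδt
    field_simp at h
    linear_combination h
  obtain ⟨s, m, hsm⟩ := exists_sq_add B.two hδ h3 1
  have hlm : δ * (s - t * m / δ) ^ 2 + 2 * t * (s - t * m / δ) * m + δ * m ^ 2 = 1 := by
    rw [← hsm]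
    field_simp
    ring
  obtain ⟨n1, n2, e⟩ := rg_mul_rg ha hb hab hδ hlm
  rw [e]
  apply B.mul_mem_of_roots
  · apply hJ _ _ n1
    intro k hk
    simp [ha0 k hk, hb0 k hk]
  · apply hJ _ _ n2
    intro k hk
    simp [ha0 k hk, hb0 k hk]

theorem Base.any_pair (B : Base X) [Finite F] (h4 : 4 ≤ Nat.card F) {J : Finset ι} (hJ : AllRoots X J)
    {a b : ι → F} (ha0 : ∀ k, k ∉ J → a k = 0) (hb0 : ∀ k, k ∉ J → b k = 0) {δ : F} (ha : a ⬝ᵥ a = δ)
    (hb : b ⬝ᵥ b = δ) (hδ : δ ≠ 0) : rg a * rg b ∈ X := by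
  classical
  by_cases hδt : δ ^ 2 ≠ (a ⬝ᵥ b) ^ 2
  · exact B.good_pair hJ ha0 hb0 ha hb rfl hδ hδt
  push Not at hδt
  have h0 : (a ⬝ᵥ b - δ) * (a ⬝ᵥ b + δ) = 0 := by linear_combination -hδt
  obtain ⟨ε, hε, hab⟩ : ∃ ε : F, ε ^ 2 = 1 ∧ a ⬝ᵥ b = ε * δ := by
    rcases mul_eq_zero.1 h0 with h | h
    · exact ⟨1, one_pow 2, by linear_combination h⟩
    · exact ⟨-1, by ring, by linear_combination h⟩
  obtain ⟨f, hf⟩ : ∃ f, f = b - ε • a := ⟨_, rfl⟩
  have hba : b ⬝ᵥ a = ε * δ := by rw [dotProduct_comm]; exact hab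
  have hε0 : ε ≠ 0 := by
    intro h
    rw [h] at hε
    exact zero_ne_one (by rw [← hε]; ring)
  have hfa : f ⬝ᵥ a = 0 := by
    rw [hf, sub_dotProduct, smul_dotProduct, hba, ha, smul_eq_mul]; ring
  have hff : f ⬝ᵥ f = 0 := by
    rw [hf]
    simp only [sub_dotProduct, dotProduct_sub, smul_dotProduct, dotProduct_smul, smul_eq_mul, ha, hb, hab, hba]
    linear_combination (-δ) * hε
  have hb' : b = ε • a + f := by rw [hf]; abel
  by_cases hf0 : f = 0
  · rw [hf0, add_zero] at hb'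
    rw [hb', rg_smul (by rw [ha]; exact hδ) hε0, rg_mul_self (by rw [ha]; exact hδ)]
    exact X.one_mem
  obtain ⟨k, hk⟩ := Function.ne_iff.1 hf0
  rw [Pi.zero_apply] at hk
  have hkJ : k ∈ J := by
    by_contra h
    apply hk
    rw [hf, Pi.sub_apply, Pi.smul_apply, ha0 k h, hb0 k h]
    simp
  obtain ⟨g, hg⟩ : ∃ g, g = ee F k - (a k / δ) • a := ⟨_, rfl⟩
  have hga : g ⬝ᵥ a = 0 := by
    rw [hg, sub_dotProduct, smul_dotProduct, ee_dot, ha, smul_eq_mul]
    field_simp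
    ring
  have hgf : g ⬝ᵥ f = f k := by
    rw [hg, sub_dotProduct, smul_dotProduct, ee_dot, dotProduct_comm a f, hfa, smul_eq_mul]; ring
  obtain ⟨f', hf'⟩ : ∃ f', f' = (f k)⁻¹ • g - ((g ⬝ᵥ g) / (2 * (f k) ^ 2)) • f := ⟨_, rfl⟩
  have hfg : f ⬝ᵥ g = f k := by rw [dotProduct_comm]; exact hgf
  have h2 := B.two
  have hf'a : f' ⬝ᵥ a = 0 := by
    rw [hf', sub_dotProduct, smul_dotProduct, smul_dotProduct, hga, hfa]; simp
  have hf'f : f' ⬝ᵥ f = 1 := by
    rw [hf', sub_dotProduct, smul_dotProduct, smul_dotProduct, hgf, hff, smul_eq_mul, smul_eq_mul]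
    field_simp
    ring
  have hff' : f ⬝ᵥ f' = 1 := by rw [dotProduct_comm]; exact hf'f
  have haf : a ⬝ᵥ f = 0 := by rw [dotProduct_comm]; exact hfa
  have haf' : a ⬝ᵥ f' = 0 := by rw [dotProduct_comm]; exact hf'a
  have hf'f' : f' ⬝ᵥ f' = 0 := by
    rw [hf']
    simp only [sub_dotProduct, dotProduct_sub, smul_dotProduct, dotProduct_smul, smul_eq_mul, hgf, hfg, hff]
    field_simp
    ring
  -- choose β
  obtain ⟨β, hβ⟩ : ∃ β : F, β ∉ ({0, δ, -δ} : Finset F) := by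
    have := Fintype.ofFinite F
    have hc : ({0, δ, -δ} : Finset F).card < Fintype.card F := by
      rw [← Nat.card_eq_fintype_card]
      exact lt_of_le_of_lt Finset.card_le_three (by omega)
    exact exists_not_mem _ hc
  simp only [Finset.mem_insert, Finset.mem_singleton, not_or] at hβ
  obtain ⟨hβ0, hβ1, hβ2⟩ := hβ
  obtain ⟨c, hc⟩ : ∃ c, c = (δ / (2 * β)) • f + β • f' := ⟨_, rfl⟩
  have hcc : c ⬝ᵥ c = δ := by
    rw [hc]
    simp only [add_dotProduct, dotProduct_add, smul_dotProduct, dotProduct_smul, smul_eq_mul, hff, hff', hf'f, hf'f']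
    field_simp
    ring
  have hac : a ⬝ᵥ c = 0 := by
    rw [hc, dotProduct_add, dotProduct_smul, dotProduct_smul, haf, haf']; simp
  have hcb : c ⬝ᵥ b = β := by
    rw [hc, hb']
    simp only [add_dotProduct, dotProduct_add, smul_dotProduct, dotProduct_smul, smul_eq_mul, hff, hfa, hf'a, hf'f]
    ring
  have hf0' : ∀ k, k ∉ J → f k = 0 := by
    intro k h
    rw [hf, Pi.sub_apply, Pi.smul_apply, ha0 k h, hb0 k h]
    simp
  have hg0' : ∀ k, k ∉ J → g k = 0 := by
    intro l h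
    have hlk : l ≠ k := by rintro rfl; exact h hkJ
    rw [hg, Pi.sub_apply, Pi.smul_apply, ha0 l h, ee_ne hlk]
    simp
  have hc0 : ∀ k, k ∉ J → c k = 0 := by
    intro l h
    rw [hc, hf', Pi.add_apply, Pi.smul_apply, Pi.smul_apply, Pi.sub_apply, Pi.smul_apply, Pi.smul_apply,
      hf0' l h, hg0' l h]
    simp
  have m1 := B.good_pair hJ ha0 hc0 ha hcc hac hδ (by
    rw [zero_pow two_ne_zero]; exact pow_ne_zero 2 hδ)
  have m2 := B.good_pair hJ hc0 hb0 hcc hb hcb hδ (by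
    intro h
    have : (β - δ) * (β + δ) = 0 := by linear_combination -h
    rcases mul_eq_zero.1 this with h' | h'
    · exact hβ1 (by linear_combination h')
    · exact hβ2 (by linear_combination h'))
  have e : rg a * rg b = (rg a * rg c) * (rg c * rg b) := by
    calc rg a * rg b = rg a * 1 * rg b := by rw [mul_one]
      _ = rg a * (rg c * rg c) * rg b := by rw [rg_mul_self (by rw [hcc]; exact hδ)]
      _ = _ := by simp only [mul_assoc]
  rw [e]
  exact X.mul_mem m1 m2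

/-- an orthogonal vector of given norm in three coordinates -/
theorem exists_perp_three [Finite F] (h2 : (2 : F) ≠ 0) {i j k : ι} (hij : i ≠ j) (hik : i ≠ k) (hjk : j ≠ k)
    (x y z : F) (hν : x ^ 2 + y ^ 2 + z ^ 2 ≠ 0) (δ : F) :
    ∃ b1 b2 b3 : F, b1 ^ 2 + b2 ^ 2 + b3 ^ 2 = δ ∧ b1 * x + b2 * y + b3 * z = 0 := by
  have key : ∀ x y z : F, x ^ 2 + y ^ 2 + z ^ 2 ≠ 0 → x ^ 2 + y ^ 2 ≠ 0 →
      ∃ b1 b2 b3 : F, b1 ^ 2 + b2 ^ 2 + b3 ^ 2 = δ ∧ b1 * x + b2 * y + b3 * z = 0 := by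
    intro x y z h1 h3
    obtain ⟨l, m, h⟩ := exists_sq_add h2 h3 (mul_ne_zero h3 h1) δ
    refine ⟨l * y + m * (z * x), - l * x + m * (z * y), - m * (x ^ 2 + y ^ 2), ?_, by ring⟩
    rw [← h]; ring
  by_cases h12 : x ^ 2 + y ^ 2 = 0
  · by_cases h13 : x ^ 2 + z ^ 2 = 0
    · have h23 : y ^ 2 + z ^ 2 ≠ 0 := by
        intro h23
        apply hν
        have : 2 * (x ^ 2 + y ^ 2 + z ^ 2) = 0 := by linear_combination h12 + h13 + h23
        exact (mul_eq_zero.1 this).resolve_left h2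
      obtain ⟨b2, b3, b1, h, h'⟩ := key y z x (by intro h; apply hν; linear_combination h) h23
      exact ⟨b1, b2, b3, by linear_combination h, by linear_combination h'⟩
    · obtain ⟨b1, b3, b2, h, h'⟩ := key x z y (by intro h; apply hν; linear_combination h) h13
      exact ⟨b1, b2, b3, by linear_combination h, by linear_combination h'⟩
  · exact key x y z hν h12

theorem three_dot {i j k : ι} (hij : i ≠ j) (hik : i ≠ k) (hjk : j ≠ k) (x y z : F) (v : ι → F) :
    (x • ee F i + y • ee F j + z • ee F k) ⬝ᵥ v = x * v i + y * v j + z * v k := by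
  rw [add_dotProduct, add_dotProduct, smul_dotProduct, smul_dotProduct, smul_dotProduct, ee_dot, ee_dot, ee_dot]
  rfl

theorem three_apply {i j k : ι} (hij : i ≠ j) (hik : i ≠ k) (hjk : j ≠ k) (x y z : F) :
    (x • ee F i + y • ee F j + z • ee F k) i = x ∧ (x • ee F i + y • ee F j + z • ee F k) j = y ∧
    (x • ee F i + y • ee F j + z • ee F k) k = z ∧
    ∀ l, l ≠ i → l ≠ j → l ≠ k → (x • ee F i + y • ee F j + z • ee F k) l = 0 := by
  simp only [Pi.add_apply, Pi.smul_apply, smul_eq_mul]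
  refine ⟨?_, ?_, ?_, ?_⟩
  · rw [ee_same, ee_ne hij, ee_ne hik]; ring
  · rw [ee_same, ee_ne (Ne.symm hij), ee_ne hjk]; ring
  · rw [ee_same, ee_ne (Ne.symm hik), ee_ne (Ne.symm hjk)]; ring
  · intro l h1 h3 h4
    rw [ee_ne h1, ee_ne h3, ee_ne h4]; ring

/-- killing a coordinate -/
theorem Base.kill (B : Base X) [Finite F] (h4 : 4 ≤ Nat.card F) {i j k : ι} (hij : i ≠ j) (hik : i ≠ k)
    (hjk : j ≠ k) (hJ : AllRoots X {i, j, k}) (v : ι → F) (hν : v i ^ 2 + v j ^ 2 + v k ^ 2 ≠ 0) :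
    ∃ g ∈ X, (∀ l, l ≠ i → l ≠ j → l ≠ k → g (ee F l) = ee F l) ∧ g v k = 0 := by
  have h2 := B.two
  obtain ⟨x, y, hxy⟩ := exists_sq_add h2 (one_ne_zero (α := F)) (one_ne_zero (α := F))
    (v i ^ 2 + v j ^ 2 + v k ^ 2)
  -- sign
  obtain ⟨x, y, hxy, hne⟩ : ∃ x y : F, x ^ 2 + y ^ 2 = v i ^ 2 + v j ^ 2 + v k ^ 2 ∧
      (v i - x) ^ 2 + (v j - y) ^ 2 + (v k) ^ 2 ≠ 0 := by
    by_cases h : (v i - x) ^ 2 + (v j - y) ^ 2 + (v k) ^ 2 = 0
    · refine ⟨-x, -y, by linear_combination hxy, ?_⟩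
      intro h'
      apply hν
      have : 2 * 2 * (v i ^ 2 + v j ^ 2 + v k ^ 2) = 0 := by linear_combination h + h' - 2 * hxy
      exact (mul_eq_zero.1 this).resolve_left (mul_ne_zero h2 h2)
    · exact ⟨x, y, by linear_combination hxy, h⟩
  obtain ⟨b1, b2, b3, hb, hbw⟩ := exists_perp_three h2 hij hik hjk (v i) (v j) (v k) hν
    ((v i - x) ^ 2 + (v j - y) ^ 2 + (v k) ^ 2)
  set δ := (v i - x) ^ 2 + (v j - y) ^ 2 + (v k) ^ 2 with hδ
  obtain ⟨a, haa⟩ : ∃ a, a = (v i - x) • ee F i + (v j - y) • ee F j + (v k) • ee F k := ⟨_, rfl⟩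
  obtain ⟨b, hbb⟩ : ∃ b, b = b1 • ee F i + b2 • ee F j + b3 • ee F k := ⟨_, rfl⟩
  obtain ⟨a1, a2, a3, a4⟩ := three_apply hij hik hjk (v i - x) (v j - y) (v k)
  obtain ⟨c1, c2, c3, c4⟩ := three_apply hij hik hjk b1 b2 b3
  have ha : a ⬝ᵥ a = δ := by
    rw [haa, three_dot hij hik hjk, a1, a2, a3, hδ]; ring
  have hb' : b ⬝ᵥ b = δ := by
    rw [hbb, three_dot hij hik hjk, c1, c2, c3, ← hb]; ring
  have hva : v ⬝ᵥ a = δ / 2 := by
    rw [dotProduct_comm, haa, three_dot hij hik hjk, hδ]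
    field_simp
    linear_combination (-1 : F) * hxy
  have hvb : v ⬝ᵥ b = 0 := by
    rw [dotProduct_comm, hbb, three_dot hij hik hjk, hbw]
  have hmem := B.any_pair h4 hJ (a := a) (b := b) (by
      intro l hl
      simp only [Finset.mem_insert, Finset.mem_singleton, not_or] at hl
      rw [haa]; exact a4 l hl.1 hl.2.1 hl.2.2) (by
      intro l hl
      simp only [Finset.mem_insert, Finset.mem_singleton, not_or] at hl
      rw [hbb]; exact c4 l hl.1 hl.2.1 hl.2.2) ha hb' hne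
  have hra : a ⬝ᵥ a ≠ 0 := by rw [ha]; exact hne
  have hrb : b ⬝ᵥ b ≠ 0 := by rw [hb']; exact hne
  refine ⟨_, hmem, ?_, ?_⟩
  · intro l h1 h3 h5
    rw [LinearEquiv.mul_apply, rg_apply hrb, ee_dot, hbb, c4 l h1 h3 h5]
    simp only [mul_zero, zero_div, zero_smul, sub_zero]
    rw [rg_apply hra, ee_dot, haa, a4 l h1 h3 h5]
    simp
  · rw [LinearEquiv.mul_apply, rg_apply hrb, hvb]
    simp only [mul_zero, zero_div, zero_smul, sub_zero]
    rw [rg_apply hra, hva, ha, Pi.sub_apply, Pi.smul_apply, haa, a3, smul_eq_mul]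
    field_simp
    ring

theorem Base.all_roots_of_three (B : Base X) [Finite F] (h4 : 4 ≤ Nat.card F) (h3 : (3 : F) ≠ 0)
    (hn : 5 ≤ Fintype.card ι)
    (hJ : ∀ i j k, i ≠ j → i ≠ k → j ≠ k → AllRoots X {i, j, k}) (v : ι → F) (hv : v ⬝ᵥ v = 1) : Root X v := by
  classical
  induction' hd : (Finset.univ.filter (fun k => v k ≠ 0)).card using Nat.strong_induction_on with d ih generalizing v
  set S := Finset.univ.filter (fun k => v k ≠ 0) with hS
  have hSm : ∀ k, k ∉ S → v k = 0 := by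
    intro k hk
    by_contra h
    exact hk (Finset.mem_filter.2 ⟨Finset.mem_univ _, h⟩)
  by_cases hd3 : d ≤ 3
  · -- small support
    obtain ⟨T, hST, hT⟩ := Finset.exists_superset_card_eq (s := S) (n := 3) (by omega) (by omega)
    obtain ⟨i, j, k, hij, hik, hjk, hT'⟩ := Finset.card_eq_three.1 hT
    apply hJ i j k hij hik hjk v _ hv
    intro l hl
    apply hSm
    intro hlS
    apply hl
    rw [← hT']; exact hST hlS
  · push Not at hd3
    -- a triple of nonzero norm in the support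
    obtain ⟨T, hTS, hT⟩ := Finset.exists_subset_card_eq (s := S) (n := 4) (by omega)
    obtain ⟨i, j, k, hi, hj, hk, hij, hik, hjk, hν⟩ : ∃ i j k, i ∈ S ∧ j ∈ S ∧ k ∈ S ∧ i ≠ j ∧ i ≠ k ∧ j ≠ k ∧
        v i ^ 2 + v j ^ 2 + v k ^ 2 ≠ 0 := by
      obtain ⟨a, b, c, d, hab, hac, had, hbc, hbd, hcd, hT'⟩ := Finset.card_eq_four.1 hT
      have ha : a ∈ S := hTS (by rw [hT']; simp)
      have hb : b ∈ S := hTS (by rw [hT']; simp)
      have hc : c ∈ S := hTS (by rw [hT']; simp)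
      have hd' : d ∈ S := hTS (by rw [hT']; simp)
      by_contra hno
      push Not at hno
      have e1 := hno a b c ha hb hc hab hac hbc
      have e2 := hno a b d ha hb hd' hab had hbd
      have e3 := hno a c d ha hc hd' hac had hcd
      have e4 := hno b c d hb hc hd' hbc hbd hcd
      have : 3 * (v a) ^ 2 = 0 := by linear_combination e1 + e2 + e3 - 2 * e4
      exact (Finset.mem_filter.1 ha).2 (pow_eq_zero_iff two_ne_zero |>.1 ((mul_eq_zero.1 this).resolve_left h3))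
    obtain ⟨g, hg, hgfix, hgk⟩ := B.kill h4 hij hik hjk (hJ i j k hij hik hjk) v hν
    have hI := B.iso g hg
    have hgv : Root X (g v) := by
      apply ih _ _ (g v) (by rw [hI, hv]) rfl
      rw [← hd]
      apply Finset.card_lt_card
      rw [Finset.ssubset_iff_of_subset]
      · exact ⟨k, hk, by simp [hgk]⟩
      · intro l hl
        rw [Finset.mem_filter] at hl
        by_contra hlS
        have h1 : l ≠ i := fun h => hlS (h ▸ hi)
        have h2' : l ≠ j := fun h => hlS (h ▸ hj)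
        have h3' : l ≠ k := fun h => hlS (h ▸ hk)
        apply hl.2
        rw [hI.fix_coord (hgfix l h1 h2' h3')]
        exact hSm l hlS
    obtain ⟨m, hm⟩ := exists_not_mem ({i, j, k} : Finset ι) (lt_of_le_of_lt Finset.card_le_three (by omega))
    simp only [Finset.mem_insert, Finset.mem_singleton, not_or] at hm
    have hgm := hgfix m hm.1 hm.2.1 hm.2.2
    have hgm' : g⁻¹ (ee F m) = ee F m := by
      have : g⁻¹ (g (ee F m)) = g⁻¹ (ee F m) := by rw [hgm]
      rw [← LinearEquiv.mul_apply, inv_mul_cancel] at this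
      exact this.symm
    have := B.root_map (X.inv_mem hg) (m := m) (Or.inl hgm') hgv
    rw [← LinearEquiv.mul_apply, inv_mul_cancel] at this
    exact this

end Cfsg.Agent.H928
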