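import Cfsg.Agent.H928.FrameG

/-!
# Orthogonal frames VIII: Siegel transformations
-/

set_option autoImplicit false
set_option linter.unusedSectionVars false
set_option linter.unusedSimpArgs false
set_option linter.unusedVariables false

namespace Cfsg.Agent.H928

open Matrix

variable {ι : Type*} [Fintype ι] [DecidableEq ι] {F : Type*} [Field F]

theorem dot_nondeg : (dotProductBilin F F : LinearMap.BilinForm F (ι → F)).Nondegenerate := by
  constructor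
  · intro x hx
    funext k
    have : x ⬝ᵥ ee F k = 0 := hx (ee F k)
    rw [dot_ee] at this
    exact this
  · intro x hx
    funext k
    have : ee F k ⬝ᵥ x = 0 := hx (ee F k)
    rw [ee_dot] at this
    exact this

theorem exists_nonisotropic (h2 : (2 : F) ≠ 0) (T : Finset (ι → F)) (hT : 2 * T.card < Fintype.card ι) :
    ∃ h : ι → F, (∀ t ∈ T, t ⬝ᵥ h = 0) ∧ h ⬝ᵥ h ≠ 0 := by
  classical
  by_contra hno
  push Not at hno
  set B : LinearMap.BilinForm F (ι → F) := dotProductBilin F F with hB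
  have hBa : ∀ x y, B x y = x ⬝ᵥ y := fun x y => rfl
  set W := Submodule.span F (T : Set (ι → F)) with hW
  have hWf : Module.finrank F W ≤ T.card := finrank_span_finset_le_card T
  have hU := LinearMap.BilinForm.finrank_orthogonal (B := B) dot_nondeg W
  have hUU := LinearMap.BilinForm.finrank_orthogonal (B := B) dot_nondeg (B.orthogonal W)
  have hiso : ∀ x ∈ B.orthogonal W, x ⬝ᵥ x = 0 := by
    intro x hx
    apply hno
    intro t ht
    exact hx t (Submodule.subset_span ht)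
  have hle : B.orthogonal W ≤ B.orthogonal (B.orthogonal W) := by
    intro x hx y hy
    show y ⬝ᵥ x = 0
    have h1 := hiso _ (Submodule.add_mem _ hx hy)
    rw [add_dotProduct, dotProduct_add, dotProduct_add, hiso x hx, hiso y hy, dotProduct_comm x y] at h1
    have h3 : 2 * (y ⬝ᵥ x) = 0 := by linear_combination h1
    exact (mul_eq_zero.1 h3).resolve_left h2
  have h4 := Submodule.finrank_mono hle
  rw [Module.finrank_fintype_fun_eq_card] at hU hUU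
  omega

theorem exists_perp_norm [Finite F] (h2 : (2 : F) ≠ 0) (hn : 7 ≤ Fintype.card ι) (f w : ι → F) (c : F) :
    ∃ h : ι → F, h ⬝ᵥ f = 0 ∧ h ⬝ᵥ w = 0 ∧ h ⬝ᵥ h = c := by
  classical
  obtain ⟨h1, h1o, h1n⟩ := exists_nonisotropic h2 ({f, w} : Finset (ι → F)) (by
    have : ({f, w} : Finset (ι → F)).card ≤ 2 := Finset.card_le_two
    omega)
  obtain ⟨h3, h3o, h3n⟩ := exists_nonisotropic h2 ({f, w, h1} : Finset (ι → F)) (by
    have : ({f, w, h1} : Finset (ι → F)).card ≤ 3 := Finset.card_le_three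
    omega)
  obtain ⟨x, y, hxy⟩ := exists_sq_add h2 h1n h3n c
  have a1 := h1o f (by simp)
  have a2 := h1o w (by simp)
  have b1 := h3o f (by simp)
  have b2 := h3o w (by simp)
  have b3 := h3o h1 (by simp)
  refine ⟨x • h1 + y • h3, ?_, ?_, ?_⟩
  · rw [dotProduct_comm, dotProduct_add, dotProduct_smul, dotProduct_smul, a1, b1]; simp
  · rw [dotProduct_comm, dotProduct_add, dotProduct_smul, dotProduct_smul, a2, b2]; simp
  · simp only [add_dotProduct, dotProduct_add, smul_dotProduct, dotProduct_smul, smul_eq_mul]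
    rw [dotProduct_comm h3 h1, b3, ← hxy]; ring

theorem siegel_one (h2 : (2 : F) ≠ 0) {f w : ι → F} (hff : f ⬝ᵥ f = 0) (hfw : f ⬝ᵥ w = 0) (hw : w ⬝ᵥ w = 1) :
    (w + (2⁻¹ : F) • f) ⬝ᵥ (w + (2⁻¹ : F) • f) = 1 ∧ ∀ x,
    (rf w * rf (w + (2⁻¹ : F) • f)) x = x + (f ⬝ᵥ x) • w - (w ⬝ᵥ x) • f - (2⁻¹ * (f ⬝ᵥ x)) • f := by
  have hwf : w ⬝ᵥ f = 0 := by rw [dotProduct_comm]; exact hfw
  have n : (w + (2⁻¹ : F) • f) ⬝ᵥ (w + (2⁻¹ : F) • f) = 1 := by
    simp only [add_dotProduct, dotProduct_add, smul_dotProduct, dotProduct_smul, smul_eq_mul, hff, hfw, hwf, hw]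
    ring
  refine ⟨n, fun x => ?_⟩
  rw [LinearEquiv.mul_apply, rf_apply n, rf_apply hw]
  simp only [add_dotProduct, dotProduct_add, sub_dotProduct, smul_dotProduct, dotProduct_smul, smul_eq_mul, hff, hfw,
    hwf, hw]
  rw [dotProduct_comm f x, dotProduct_comm w x]
  generalize x ⬝ᵥ w = α
  generalize x ⬝ᵥ f = β
  have e : ∀ A B C : F, A = 0 → x - (2 * (α + 2⁻¹ * β)) • (w + (2⁻¹ : F) • f) - B • w = 
      x + (- B - 2 * (α + 2⁻¹ * β)) • w - ((α + 2⁻¹ * β) * (2 * 2⁻¹)) • f := by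
    intro A B C _
    module
  rw [e 0 _ 0 rfl, mul_inv_cancel₀ h2]
  have e2 : -(2 * (α - 2 * (α + 2⁻¹ * β) * (1 + 2⁻¹ * 0))) - 2 * (α + 2⁻¹ * β) = β := by
    field_simp
    ring
  rw [e2]
  module

variable {X : Subgroup ((ι → F) ≃ₗ[F] (ι → F))}

theorem Base.siegel_mem (B : Base X) [Finite F] (hn : 7 ≤ Fintype.card ι) (hall : ∀ v : ι → F, v ⬝ᵥ v = 1 → Root X v)
    {f w : ι → F} (hff : f ⬝ᵥ f = 0) (hfw : f ⬝ᵥ w = 0) {g : (ι → F) ≃ₗ[F] (ι → F)}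
    (hg : ∀ x, g x = x + (f ⬝ᵥ x) • w - (w ⬝ᵥ x) • f - (2⁻¹ * (w ⬝ᵥ w) * (f ⬝ᵥ x)) • f) : g ∈ X := by
  have h2 := B.two
  have : Nonempty ι := by
    rw [← Fintype.card_pos_iff]; omega
  obtain ⟨h, hhf, hhw, hhh⟩ := exists_perp_norm h2 hn f w (1 - (2⁻¹ * 2⁻¹) * (w ⬝ᵥ w))
  have hfh : f ⬝ᵥ h = 0 := by rw [dotProduct_comm]; exact hhf
  have hwh : w ⬝ᵥ h = 0 := by rw [dotProduct_comm]; exact hhw
  have h22 : (2 : F) * 2⁻¹ = 1 := mul_inv_cancel₀ h2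
  obtain ⟨w1, hw1⟩ : ∃ w1, w1 = (2⁻¹ : F) • w + h := ⟨_, rfl⟩
  obtain ⟨w2, hw2⟩ : ∃ w2, w2 = (2⁻¹ : F) • w - h := ⟨_, rfl⟩
  have n1 : w1 ⬝ᵥ w1 = 1 := by
    rw [hw1]
    simp only [add_dotProduct, dotProduct_add, smul_dotProduct, dotProduct_smul, smul_eq_mul, hhw, hwh, hhh]
    ring
  have n2 : w2 ⬝ᵥ w2 = 1 := by
    rw [hw2]
    simp only [sub_dotProduct, dotProduct_sub, smul_dotProduct, dotProduct_smul, smul_eq_mul, hhw, hwh, hhh]
    ring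
  have f1 : f ⬝ᵥ w1 = 0 := by rw [hw1, dotProduct_add, dotProduct_smul, hfw, hfh]; simp
  have f2 : f ⬝ᵥ w2 = 0 := by rw [hw2, dotProduct_sub, dotProduct_smul, hfw, hfh]; simp
  have n12 : w1 ⬝ᵥ w2 = 2⁻¹ * (w ⬝ᵥ w) - 1 := by
    rw [hw1, hw2]
    simp only [add_dotProduct, dotProduct_sub, smul_dotProduct, dotProduct_smul, smul_eq_mul, hhw, hwh, hhh]
    linear_combination (w ⬝ᵥ w) * 2⁻¹ * h22
  have hsum : w1 + w2 = w := by
    rw [hw1, hw2]
    have : (2⁻¹ : F) • w + h + ((2⁻¹ : F) • w - h) = (2 * 2⁻¹ : F) • w := by module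
    rw [this, h22, one_smul]
  obtain ⟨m1, s1⟩ := siegel_one h2 hff f1 n1
  obtain ⟨m2, s2⟩ := siegel_one h2 hff f2 n2
  have e : g = (rf w1 * rf (w1 + (2⁻¹ : F) • f)) * (rf w2 * rf (w2 + (2⁻¹ : F) • f)) := by
    apply LinearEquiv.ext
    intro x
    rw [LinearEquiv.mul_apply, s2, s1, hg]
    have hw1f : w1 ⬝ᵥ f = 0 := by rw [dotProduct_comm]; exact f1
    have hfT : f ⬝ᵥ (x + (f ⬝ᵥ x) • w2 - (w2 ⬝ᵥ x) • f - (2⁻¹ * (f ⬝ᵥ x)) • f) = f ⬝ᵥ x := by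
      simp only [dotProduct_add, dotProduct_sub, dotProduct_smul, smul_eq_mul, hff, f2]
      ring
    have hwT : w1 ⬝ᵥ (x + (f ⬝ᵥ x) • w2 - (w2 ⬝ᵥ x) • f - (2⁻¹ * (f ⬝ᵥ x)) • f) =
        w1 ⬝ᵥ x + (f ⬝ᵥ x) * (w1 ⬝ᵥ w2) := by
      simp only [dotProduct_add, dotProduct_sub, dotProduct_smul, smul_eq_mul, hw1f]
      ring
    have hww : w ⬝ᵥ w = 2 * (1 + w1 ⬝ᵥ w2) := by
      rw [← hsum]
      simp only [add_dotProduct, dotProduct_add, n1, n2, dotProduct_comm w2 w1]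
      ring
    have hwx : w ⬝ᵥ x = w1 ⬝ᵥ x + w2 ⬝ᵥ x := by rw [← hsum, add_dotProduct]
    rw [hfT, hwT, hww, hwx, ← mul_assoc (2⁻¹ : F) 2, inv_mul_cancel₀ h2, one_mul]
    conv_lhs => rw [← hsum]
    generalize w1 ⬝ᵥ x = α
    generalize w2 ⬝ᵥ x = β
    generalize f ⬝ᵥ x = γ
    generalize w1 ⬝ᵥ w2 = s
    have e3 : γ = 2⁻¹ * γ + 2⁻¹ * γ := by
      have : 2⁻¹ * γ + 2⁻¹ * γ = (2 * 2⁻¹) * γ := by ring
      rw [this, h22, one_mul]
    have e4 : (1 + s) * γ = (2⁻¹ * γ + 2⁻¹ * γ) + s * γ := by rw [← e3]; ring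
    rw [e4]
    module
  rw [e]
  exact X.mul_mem (B.mul_mem_of_roots (hall _ n1) (hall _ m1)) (B.mul_mem_of_roots (hall _ n2) (hall _ m2))

end Cfsg.Agent.H928
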