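import Cfsg.Agent.H928.FrameI
import Cfsg.Agent.H928.FrameJ

/-!
# Orthogonal frames X: permutations and signs, and Dickson's theorem in three dimensional subspaces
-/

set_option autoImplicit false
set_option linter.unusedSectionVars false
set_option linter.unusedSimpArgs false
set_option linter.unusedVariables false

namespace Cfsg.Agent.H928

open Matrix

variable {ι : Type*} [Fintype ι] [DecidableEq ι] {F : Type*} [Field F]
variable {X : Subgroup ((ι → F) ≃ₗ[F] (ι → F))}

/-- `pm` as a homomorphism -/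
def pmHom (ι : Type*) [Fintype ι] [DecidableEq ι] (F : Type*) [Field F] : Equiv.Perm ι →* ((ι → F) ≃ₗ[F] (ι → F)) where
  toFun σ := pm F σ
  map_one' := by
    apply ext_ee
    intro i
    rw [pm_ee]; rfl
  map_mul' σ τ := pm_mul σ τ

theorem Base.pm_mem (B : Base X) {σ : Equiv.Perm ι} (hσ : Equiv.Perm.sign σ = 1) : pm F σ ∈ X := by
  have h1 : σ ∈ alternatingGroup ι := Equiv.Perm.mem_alternatingGroup.2 hσ
  rw [← Equiv.Perm.closure_three_cycles_eq_alternating] at h1
  have h2 : Subgroup.closure {σ : Equiv.Perm ι | σ.IsThreeCycle} ≤ X.comap (pmHom ι F) := by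
    rw [Subgroup.closure_le]
    intro g hg
    have hg' : g.IsThreeCycle := hg
    have hne : g.support.Nonempty := by
      rw [← Finset.card_pos, hg'.card_support]; norm_num
    obtain ⟨a, ha⟩ := hne
    have e := hg'.eq_swap_mul_swap_iff_mem_support.2 ha
    have h1 : a ≠ g a := (Equiv.Perm.mem_support.1 ha).symm
    have h3 : g a ≠ g (g a) := fun h => h1 (g.injective h)
    have h4 : a ≠ g (g a) := by
      intro h
      have h5 : (g * g * g) a = a := by
        have : g ^ 3 = 1 := by rw [← hg'.orderOf, pow_orderOf_eq_one]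
        have e : g * g * g = g ^ 3 := by rw [pow_succ, pow_two]
        rw [e, this]; rfl
      rw [Equiv.Perm.mul_apply, Equiv.Perm.mul_apply, ← Equiv.Perm.mul_apply, Equiv.Perm.mul_apply] at h5
      rw [← h] at h5
      exact h1 h5.symm
    show pm F g ∈ X
    have e' : g = cyc a (g a) (g (g a)) := e
    rw [e']
    exact B.hc3 a (g a) (g (g a)) h1 h4 h3
  exact h2 h1

theorem Base.root_pm_even (B : Base X) {σ : Equiv.Perm ι} (hσ : Equiv.Perm.sign σ = 1) {u : ι → F} (hu : Root X u)
    [hne : Nonempty ι] : Root X (pm F σ u) := by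
  obtain ⟨m⟩ := hne
  apply B.root_map' (B.pm_mem hσ) hu (B.root_ee m)
  rw [pm_ee]
  exact B.root_ee _

theorem Base.root_pm (B : Base X) (σ : Equiv.Perm ι) {u : ι → F} (hu : Root X u) {m n : ι} (hmn : m ≠ n)
    (hm : u m = 0) (hn : u n = 0) : Root X (pm F σ u) := by
  have : Nonempty ι := ⟨m⟩
  rcases Int.units_eq_one_or (Equiv.Perm.sign σ) with h | h
  · exact B.root_pm_even h hu
  · have h1 : Equiv.Perm.sign (σ * Equiv.swap m n) = 1 := by
      rw [Equiv.Perm.sign_mul, h, Equiv.Perm.sign_swap hmn]; rfl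
    have h2 := B.root_pm_even h1 hu
    have e : pm F (σ * Equiv.swap m n) u = pm F σ u := by
      rw [pm_mul, LinearEquiv.mul_apply]
      congr 1
      funext k
      rw [pm_apply, Equiv.swap_inv]
      by_cases h3 : k = m
      · rw [h3, Equiv.swap_apply_left, hm, hn]
      · by_cases h4 : k = n
        · rw [h4, Equiv.swap_apply_right, hm, hn]
        · rw [Equiv.swap_apply_of_ne_of_ne h3 h4]
    rwa [e] at h2

/-- flipping one coordinate -/
theorem Base.root_flip (B : Base X) (hn : 3 ≤ Fintype.card ι) (k : ι) {u : ι → F} (hu : Root X u) {m : ι}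
    (hm : u m = 0) : Root X (sg F {k} u) := by
  by_cases hkm : k = m
  · have e : sg F {k} u = u := by
      funext c
      rw [sg_apply]
      by_cases hc : c ∈ ({k} : Finset ι)
      · rw [if_pos hc]
        rw [Finset.mem_singleton] at hc
        rw [hc, hkm, hm, neg_zero]
      · rw [if_neg hc]
    rwa [e]
  · have h := B.root_sg hn hkm hu
    have e : sg F {k, m} u = sg F {k} u := by
      funext c
      rw [sg_apply, sg_apply]
      by_cases hc : c = k
      · subst hc; simp
      · by_cases hcm : c = m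
        · subst hcm; simp [hm, hc]
        · simp [hc, hcm]
    rwa [e] at h

/-- flipping any set of coordinates -/
theorem Base.root_flips (B : Base X) (hn : 3 ≤ Fintype.card ι) (S : Finset ι) {u : ι → F} (hu : Root X u) {m : ι}
    (hm : u m = 0) : Root X (sg F S u) := by
  induction S using Finset.induction_on with
  | empty => rw [sg_empty]; exact hu
  | insert a S ha ih =>
    have h1 := B.root_flip hn a ih (m := m) (by rw [sg_apply, hm]; simp)
    rw [← LinearEquiv.mul_apply, sg_mul] at h1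
    have e : symmDiff {a} S = insert a S := by
      ext c
      simp only [Finset.mem_symmDiff, Finset.mem_singleton, Finset.mem_insert]
      constructor
      · rintro (⟨h, _⟩ | ⟨h, _⟩)
        · exact Or.inl h
        · exact Or.inr h
      · rintro (rfl | h)
        · exact Or.inl ⟨rfl, ha⟩
        · exact Or.inr ⟨h, fun h' => ha (h' ▸ h)⟩
    rwa [e] at h1

/-- coordinates of a root can be moved and flipped -/
theorem Base.root_move (B : Base X) (hn : 3 ≤ Fintype.card ι) (σ : Equiv.Perm ι) {u v : ι → F} (hu : Root X u)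
    {m n : ι} (hmn : m ≠ n) (hm : u m = 0) (hn' : u n = 0)
    (hv : ∀ k, v (σ k) = u k ∨ v (σ k) = - u k) : Root X v := by
  classical
  have h1 := B.root_pm σ hu hmn hm hn'
  set S : Finset ι := Finset.univ.filter (fun k => v k ≠ pm F σ u k) with hS
  have h2 := B.root_flips hn S h1 (m := σ m) (by
    rw [pm_apply, ← Equiv.Perm.mul_apply, inv_mul_cancel, Equiv.Perm.one_apply, hm])
  have e : sg F S (pm F σ u) = v := by
    funext k
    rw [sg_apply]
    have hk := hv (σ⁻¹ k)
    rw [← Equiv.Perm.mul_apply, mul_inv_cancel, Equiv.Perm.one_apply] at hk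
    by_cases h : k ∈ S
    · rw [if_pos h, pm_apply]
      rw [Finset.mem_filter, pm_apply] at h
      rcases hk with h3 | h3
      · exact absurd h3 h.2
      · exact h3.symm
    · rw [if_neg h, pm_apply]
      rw [Finset.mem_filter, pm_apply] at h
      push Not at h
      exact (h (Finset.mem_univ _)).symm
  rwa [e] at h2

theorem exists_perm_three {i j k i' j' k' : ι} (hij : i ≠ j) (hik : i ≠ k) (hjk : j ≠ k) (hij' : i' ≠ j')
    (hik' : i' ≠ k') (hjk' : j' ≠ k') : ∃ σ : Equiv.Perm ι, σ i = i' ∧ σ j = j' ∧ σ k = k' := by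
  classical
  let f : Fin 3 ↪ ι := ⟨![i, j, k], by
    intro a b hab
    fin_cases a <;> fin_cases b <;> simp_all⟩
  let g : Fin 3 ↪ ι := ⟨![i', j', k'], by
    intro a b hab
    fin_cases a <;> fin_cases b <;> simp_all⟩
  obtain ⟨σ, hσ⟩ : ∃ σ : Equiv.Perm ι, ∀ x, σ (f x) = g x := by
    have e : {x // x ∈ Set.range f} ≃ {x // x ∈ Set.range g} :=
      (Equiv.ofInjective f f.injective).symm.trans (Equiv.ofInjective g g.injective)
    refine ⟨((Equiv.ofInjective f f.injective).symm.trans (Equiv.ofInjective g g.injective)).extendSubtype, ?_⟩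
    intro x
    rw [Equiv.extendSubtype_apply_of_mem _ _ (Set.mem_range_self x)]
    have : (Equiv.ofInjective f f.injective).symm ⟨f x, Set.mem_range_self x⟩ = x := by
      rw [Equiv.symm_apply_eq]; rfl
    simp only [Equiv.trans_apply, this]
    rfl
  exact ⟨σ, hσ 0, hσ 1, hσ 2⟩

/-- from one triple to all triples -/
theorem Base.allRoots_triples (B : Base X) (hn : 5 ≤ Fintype.card ι) {i j k : ι} (hij : i ≠ j) (hik : i ≠ k)
    (hjk : j ≠ k) (h : AllRoots X {i, j, k}) {i' j' k' : ι} (hij' : i' ≠ j')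
    (hik' : i' ≠ k') (hjk' : j' ≠ k') : AllRoots X {i', j', k'} := by
  intro z hz hz1
  obtain ⟨σ, h1, h2, h3⟩ := exists_perm_three hij hik hjk hij' hik' hjk'
  obtain ⟨m, hm⟩ := exists_not_mem ({i, j, k} : Finset ι) (lt_of_le_of_lt Finset.card_le_three (by omega))
  obtain ⟨n, hn'⟩ := exists_not_mem ({m, i, j, k} : Finset ι) (lt_of_le_of_lt Finset.card_le_four (by omega))
  have hmn : m ≠ n := by
    rintro rfl; exact hn' (by simp)
  have hn'' : n ∉ ({i, j, k} : Finset ι) := fun h => hn' (Finset.mem_insert_of_mem h)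
  have hsupp : ∀ l, l ∉ ({i, j, k} : Finset ι) → (pm F σ⁻¹ z) l = 0 := by
    intro l hl
    rw [pm_apply, inv_inv]
    apply hz
    simp only [Finset.mem_insert, Finset.mem_singleton, not_or] at hl ⊢
    rw [← h1, ← h2, ← h3]
    exact ⟨fun h => hl.1 (σ.injective h), fun h => hl.2.1 (σ.injective h), fun h => hl.2.2 (σ.injective h)⟩
  have hr : Root X (pm F σ⁻¹ z) := h _ hsupp (by rw [pm_isIso, hz1])
  have h4 := B.root_pm σ hr hmn (hsupp m hm) (hsupp n hn'')
  rwa [← LinearEquiv.mul_apply, ← pm_mul, mul_inv_cancel, show pm F (1 : Equiv.Perm ι) = 1 from (pmHom ι F).map_one] at h4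

theorem rf_mul_rf_eq_one (h2 : (2 : F) ≠ 0) {z z' : ι → F} (hz : z ⬝ᵥ z = 1) (hz' : z' ⬝ᵥ z' = 1)
    (h : rf z * rf z' = 1) : z' = z ∨ z' = -z := by
  have h1 : (rf z * rf z') z' = z' := by rw [h]; rfl
  have e : rf z' z' = - z' := by
    rw [rf_apply hz', hz']; module
  rw [LinearEquiv.mul_apply, e, map_neg, rf_apply hz] at h1
  have h3 : z' = (z' ⬝ᵥ z) • z := by
    funext c
    have h4 := congrFun h1 c
    simp only [Pi.neg_apply, Pi.sub_apply, Pi.smul_apply, smul_eq_mul] at h4 ⊢
    apply mul_left_cancel₀ h2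
    linear_combination -h4
  have h5 : (z' ⬝ᵥ z) ^ 2 = 1 := by
    have h6 := hz'
    rw [h3, smul_dotProduct, dotProduct_smul, hz] at h6
    simp only [smul_eq_mul, mul_one] at h6
    linear_combination h6
  rcases sq_eq_one_iff_of_ne_zero' h5 with h6 | h6
  · left; rw [h6, one_smul] at h3; exact h3
  · right; rw [h6, neg_smul, one_smul] at h3; exact h3

/-- membership in the three space -/
def InP (i j : ι) (w z : ι → F) : Prop := ∃ α β γ : F, z = α • ee F i + β • ee F j + γ • w

theorem Mod.pr_of_inP {i j : ι} {w : ι → F} {N a b : F} (m : Mod i j w N a b) {z : ι → F} (hz : InP i j w z) :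
    z = pr i j w N z := by
  obtain ⟨α, β, γ, rfl⟩ := hz
  have e1 : (α • ee F i + β • ee F j + γ • w) i = α := by
    simp only [Pi.add_apply, Pi.smul_apply, smul_eq_mul]
    rw [ee_same, ee_ne m.hij, m.hwi]; ring
  have e2 : (α • ee F i + β • ee F j + γ • w) j = β := by
    simp only [Pi.add_apply, Pi.smul_apply, smul_eq_mul]
    rw [ee_same, ee_ne (Ne.symm m.hij), m.hwj]; ring
  have e3 : tc w N (α • ee F i + β • ee F j + γ • w) = γ := by
    rw [tc, add_dotProduct, add_dotProduct, smul_dotProduct, smul_dotProduct, smul_dotProduct, ee_dot, ee_dot,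
      m.hwi, m.hwj, m.hN]
    have := m.hN0
    simp only [smul_eq_mul]
    field_simp
    ring
  rw [pr, e1, e2, e3]

theorem Mod.ge_mul {i j : ι} {w : ι → F} {N a b : F} (m : Mod i j w N a b) {z u v : ι → F}
    (hz : z = pr i j w N z) (hz1 : z ⬝ᵥ z = 1) (hu : u = pr i j w N u) (hu1 : u ⬝ᵥ u = 1)
    (hv : v = pr i j w N v) (hv1 : v ⬝ᵥ v = 1) :
    m.ge hz hz1 hu hu1 * m.ge hu hu1 hv hv1 = - m.ge hz hz1 hv hv1 := by
  apply Subtype.ext
  rw [Matrix.SpecialLinearGroup.coe_mul, Matrix.SpecialLinearGroup.coe_neg]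
  show (N⁻¹ • (cA i j w N a b z * cA i j w N a b u)) * (N⁻¹ • (cA i j w N a b u * cA i j w N a b v)) =
    - (N⁻¹ • (cA i j w N a b z * cA i j w N a b v))
  have h3 := cA_sq m.h2 m.hN0 m.hab (w := w) (i := i) (j := j) u
  rw [fo_eq hu u, hu1] at h3
  rw [smul_mul_smul_comm, ← mul_assoc, mul_assoc (cA i j w N a b z), h3]
  simp only [mul_smul_comm, smul_mul_assoc, mul_one, smul_smul]
  have := m.hN0
  rw [← neg_smul]
  congr 1
  field_simp

/-- **Lemma D** -/
theorem Base.lemD (B : Base X) [Fintype F] {p : ℕ} (hp : p.Prime) (hF : Fintype.card F = p) {u : ι → F}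
    (hu : Root X u) {i j : ι} (hij : i ≠ j) (hi : u i ≠ 0) (hj : u j ≠ 0) (hN : u i ^ 2 + u j ^ 2 ≠ 1)
    {w : ι → F} (hw : w = u - u i • ee F i - u j • ee F j) :
    (∀ z, z ⬝ᵥ z = 1 → InP i j w z → Root X z) ∨
    (∀ z z', Root X z → Root X z' → InP i j w z → InP i j w z' → z' = z ∨ z' = -z ∨
      4 * (z ⬝ᵥ z') ^ 2 = 0 ∨ 4 * (z ⬝ᵥ z') ^ 2 = 1 ∨ 4 * (z ⬝ᵥ z') ^ 2 = 2 ∨
      (4 * (z ⬝ᵥ z') ^ 2) ^ 2 - 3 * (4 * (z ⬝ᵥ z') ^ 2) + 1 = 0) := by
  have h2 := B.two
  have hne : Nonempty ι := ⟨i⟩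
  set N : F := 1 - u i ^ 2 - u j ^ 2 with hNdef
  have hN0 : N ≠ 0 := by
    intro h; apply hN; linear_combination -h
  obtain ⟨a, b, hab⟩ := exists_sq_add h2 (one_ne_zero (α := F)) hN0 (-N)
  have hwi : w i = 0 := by
    rw [hw]; simp only [Pi.sub_apply, Pi.smul_apply, smul_eq_mul]; rw [ee_same, ee_ne hij]; ring
  have hwj : w j = 0 := by
    rw [hw]; simp only [Pi.sub_apply, Pi.smul_apply, smul_eq_mul]; rw [ee_same, ee_ne (Ne.symm hij)]; ring
  have huw : u = u i • ee F i + u j • ee F j + (1 : F) • w := by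
    rw [hw]; module
  have hwu : w ⬝ᵥ u = N := by
    rw [hw, sub_dotProduct, sub_dotProduct, smul_dotProduct, smul_dotProduct, ee_dot, ee_dot, hu.1, hNdef]
    simp only [smul_eq_mul]; ring
  have hww : w ⬝ᵥ w = N := by
    have : w ⬝ᵥ w = w ⬝ᵥ u - u i * w i - u j * w j := by
      conv_lhs => rw [hw]
      rw [sub_dotProduct, sub_dotProduct, smul_dotProduct, smul_dotProduct, ee_dot, ee_dot, ← hw, dotProduct_comm u w]
      rfl
    rw [this, hwi, hwj, hwu]; ring
  have m : Mod i j w N a b := ⟨h2, hij, hwi, hwj, hww, hN0, by linear_combination hab⟩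
  have pei : InP i j w (ee F i) := ⟨1, 0, 0, by module⟩
  have pej : InP i j w (ee F j) := ⟨0, 1, 0, by module⟩
  have pu : InP i j w u := ⟨_, _, _, huw⟩
  have qei := m.pr_of_inP pei
  have qej := m.pr_of_inP pej
  have qu := m.pr_of_inP pu
  have c1 : m.ge qu hu.1 qei (ee_norm i) ∈ m.slH X := (m.ge_mem _ _ _ _).2 (hu.2 i)
  have c2 : m.ge qu hu.1 qej (ee_norm j) ∈ m.slH X := (m.ge_mem _ _ _ _).2 (hu.2 j)
  have t1 : tr (m.ge qu hu.1 qei (ee_norm i)) = -(2 * u i) := by
    show Matrix.trace _ = _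
    rw [m.trace_ge, dot_ee]
  have t2 : tr (m.ge qu hu.1 qej (ee_norm j)) = -(2 * u j) := by
    show Matrix.trace _ = _
    rw [m.trace_ge, dot_ee]
  have tJ : tr ((m.ge qu hu.1 qei (ee_norm i))⁻¹ * m.ge qu hu.1 qej (ee_norm j)) = 0 := by
    rw [m.ge_inv, m.ge_mul]
    show Matrix.trace _ = _
    rw [Matrix.SpecialLinearGroup.coe_neg, Matrix.trace_neg, m.trace_ge, dot_ee, ee_ne (Ne.symm hij)]
    ring
  rcases sl_dickson hp hF h2 (m.slH X) c1 c2 (by rw [t1]; exact neg_ne_zero.2 (mul_ne_zero h2 hi))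
    (by rw [t2]; exact neg_ne_zero.2 (mul_ne_zero h2 hj)) tJ (by
      rw [t1, t2]
      intro h
      apply hN
      have : 2 * 2 * (u i ^ 2 + u j ^ 2 - 1) = 0 := by linear_combination h
      linear_combination (mul_eq_zero.1 this).resolve_left (mul_ne_zero h2 h2)) with h | h
  · left
    intro z hz hzP
    have qz := m.pr_of_inP hzP
    apply B.root_of hz (k := i)
    rw [← m.ge_mem qz hz qei (ee_norm i), h]
    trivial
  · right
    intro z z' hz hz' hzP hzP'
    have qz := m.pr_of_inP hzP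
    have qz' := m.pr_of_inP hzP'
    have hmem : m.ge qz hz.1 qz' hz'.1 ∈ m.slH X := (m.ge_mem _ _ _ _).2 (B.mul_mem_of_roots hz hz')
    have ht : tr (m.ge qz hz.1 qz' hz'.1) = -(2 * (z ⬝ᵥ z')) := m.trace_ge _ _ _ _
    by_cases hc : m.ge qz hz.1 qz' hz'.1 ∈ Subgroup.center (Matrix.SpecialLinearGroup (Fin 2) F)
    · have h1 : rf z * rf z' = 1 := by
        apply LinearEquiv.ext
        intro v
        rw [← m.act_ge qz hz.1 qz' hz'.1, act]
        have e1 : ((m.ge qz hz.1 qz' hz'.1 : Matrix.SpecialLinearGroup (Fin 2) F) : Matrix (Fin 2) (Fin 2) F) *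
            cA i j w N a b v *
            (((m.ge qz hz.1 qz' hz'.1)⁻¹ : Matrix.SpecialLinearGroup (Fin 2) F) : Matrix (Fin 2) (Fin 2) F) =
            cA i j w N a b v := by
          obtain ⟨e, he⟩ := coe_of_center hc
          have h3 := sl_mul_inv (m.ge qz hz.1 qz' hz'.1)
          rw [he] at h3 ⊢
          rw [smul_mul_assoc, one_mul, smul_mul_assoc] at *
          rw [← mul_smul_comm, h3, mul_one]
        rw [e1, sub_self, map_zero, add_zero]
        rfl
      rcases rf_mul_rf_eq_one h2 hz.1 hz'.1 h1 with h3 | h3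
      · exact Or.inl h3
      · exact Or.inr (Or.inl h3)
    · right; right
      have h3 := h _ hmem hc
      rw [ht] at h3
      rcases h3 with h3 | h3 | h3 | h3
      · left; linear_combination h3
      · right; left; linear_combination h3
      · right; right; left; linear_combination h3
      · right; right; right; linear_combination h3

end Cfsg.Agent.H928
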