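import Cfsg.Agent.H928.FrameL

/-!
# Orthogonal frames XII: no minimal roots of support at least four, `p ≥ 7`
-/

set_option autoImplicit false
set_option linter.unusedSectionVars false
set_option linter.unusedSimpArgs false
set_option linter.unusedVariables false

namespace Cfsg.Agent.H928

open Matrix

variable {ι : Type*} [Fintype ι] [DecidableEq ι] {F : Type*} [Field F]
variable {X : Subgroup ((ι → F) ≃ₗ[F] (ι → F))}

theorem sz_pm (σ : Equiv.Perm ι) (u : ι → F) : sz (pm F σ u) = sz u := by
  classical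
  unfold sz
  refine Finset.card_bij (fun k _ => σ⁻¹ k) ?_ ?_ ?_
  · intro k hk
    rw [Finset.mem_filter] at hk ⊢
    exact ⟨Finset.mem_univ _, hk.2⟩
  · intro a _ b _ h
    exact (σ⁻¹).injective h
  · intro b hb
    have e : σ⁻¹ (σ b) = b := by rw [← Equiv.Perm.mul_apply, inv_mul_cancel]; rfl
    refine ⟨σ b, ?_, e⟩
    rw [Finset.mem_filter] at hb ⊢
    refine ⟨Finset.mem_univ _, ?_⟩
    rw [pm_apply, e]
    exact hb.2

/-- the sign change on four coordinates followed by the reflection -/
theorem Base.flip4 (B : Base X) (hn : 5 ≤ Fintype.card ι) {u : ι → F} (hu : Root X u) {a b c d : ι} (hab : a ≠ b)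
    (hac : a ≠ c) (had : a ≠ d) (hbc : b ≠ c) (hbd : b ≠ d) (hcd : c ≠ d) :
    ∃ v, Root X v ∧ v = u - (2 * u a) • ee F a - (2 * u b) • ee F b - (2 * u c) • ee F c - (2 * u d) • ee F d := by
  refine ⟨_, B.root_sg (by omega) hab (B.root_sg (by omega) hcd hu), ?_⟩
  rw [sg_pair_apply hab, sg_pair_apply hcd]
  simp only [Pi.sub_apply, Pi.smul_apply, smul_eq_mul]
  rw [ee_ne hac, ee_ne had, ee_ne hbc, ee_ne hbd]
  module

section Min

variable (B : Base X) [Fintype F] {p : ℕ} (hp : p.Prime) (hF : Fintype.card F = p)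
  (h3 : (3 : F) ≠ 0) (h5 : (5 : F) ≠ 0) (hn : 7 ≤ Fintype.card ι) {s : ℕ} (hs : 4 ≤ s)
  (hmin : ∀ v, Root X v → sz v < s → sz v ≤ 2)

include B hp hF h3 h5 hn hs hmin

theorem s_eq_four {u : ι → F} (hu : Root X u) (hus : sz u = s) : s = 4 := by
  classical
  have h2 := B.two
  by_contra hs4
  have hs5 : 5 ≤ s := by omega
  obtain ⟨T, hTS, hT⟩ := Finset.exists_subset_card_eq (s := Finset.univ.filter (fun k => u k ≠ 0)) (n := 4)
    (by rw [← hus] at hs5; unfold sz at hs5; omega)
  have hT5 : T.card < (Finset.univ.filter (fun k => u k ≠ 0)).card := by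
    rw [← hus] at hs5; unfold sz at hs5; omega
  obtain ⟨m, hmS, hmT⟩ := Finset.exists_mem_notMem_of_card_lt_card hT5
  obtain ⟨a, b, c, d, hab, hac, had, hbc, hbd, hcd, hT'⟩ := Finset.card_eq_four.1 hT
  have hne : ∀ k ∈ T, u k ≠ 0 := fun k hk => (Finset.mem_filter.1 (hTS hk)).2
  have ha := hne a (by rw [hT']; simp)
  have hb := hne b (by rw [hT']; simp)
  have hc := hne c (by rw [hT']; simp)
  have hd := hne d (by rw [hT']; simp)
  have hm := (Finset.mem_filter.1 hmS).2
  rw [hT'] at hmT
  simp only [Finset.mem_insert, Finset.mem_singleton, not_or] at hmT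
  have one := fun k hk => one_all B hp hF h3 h5 hn hs hmin hu hus (i := k) hk
  obtain ⟨v, hv, hve⟩ := B.flip4 (by omega) hu hab hac had hbc hbd hcd
  have hvu : v ⬝ᵥ u = -1 := by
    rw [hve]
    simp only [sub_dotProduct, smul_dotProduct, ee_dot, hu.1, smul_eq_mul]
    have e : 2 * (1 - 2 * u a * u a - 2 * u b * u b - 2 * u c * u c - 2 * u d * u d + 1) = 0 := by
      linear_combination -(one a ha) - (one b hb) - (one c hc) - (one d hd)
    have e' := (mul_eq_zero.1 e).resolve_left h2
    linear_combination e'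
  have hr := B.root_rf hu hv
  have e : ∀ k, rf u v k = v k + 2 * u k := by
    intro k; rw [rf_apply hu.1, hvu]
    simp only [Pi.sub_apply, Pi.smul_apply, smul_eq_mul]; ring
  have hvk : ∀ k, v k = u k ∨ v k = - u k := by
    intro k
    rw [hve]
    simp only [Pi.sub_apply, Pi.smul_apply, smul_eq_mul]
    by_cases h1 : k = a
    · subst h1; right; rw [ee_same, ee_ne hab, ee_ne hac, ee_ne had]; ring
    · by_cases h4 : k = b
      · subst h4; right; rw [ee_same, ee_ne h1, ee_ne hbc, ee_ne hbd]; ring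
      · by_cases h6 : k = c
        · subst h6; right; rw [ee_same, ee_ne h1, ee_ne h4, ee_ne hcd]; ring
        · by_cases h7 : k = d
          · subst h7; right; rw [ee_same, ee_ne h1, ee_ne h4, ee_ne h6]; ring
          · left; rw [ee_ne h1, ee_ne h4, ee_ne h6, ee_ne h7]; ring
  have hsz : sz (rf u v) = s := by
    rw [← hus]
    apply sz_congr
    intro k
    rw [e]
    rcases hvk k with h | h <;> rw [h]
    · constructor
      · intro h'
        have : 3 * u k = 0 := by linear_combination h'
        exact (mul_eq_zero.1 this).resolve_left h3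
      · intro h'; rw [h']; ring
    · constructor
      · intro h'; linear_combination h'
      · intro h'; rw [h']; ring
  have hvm : v m = u m := by
    rw [hve]
    simp only [Pi.sub_apply, Pi.smul_apply, smul_eq_mul]
    rw [ee_ne hmT.1, ee_ne hmT.2.1, ee_ne hmT.2.2.1, ee_ne hmT.2.2.2]; ring
  have h9 := one_all B hp hF h3 h5 hn hs hmin hr hsz (i := m) (by
    rw [e, hvm]
    intro h'
    have : 3 * u m = 0 := by linear_combination h'
    exact hm ((mul_eq_zero.1 this).resolve_left h3))
  rw [e, hvm] at h9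
  have h1 := one m hm
  have : (2 : F) * (2 * 2) = 0 := by linear_combination h9 - 9 * h1
  exact mul_ne_zero h2 (mul_ne_zero h2 h2) this

theorem no_min {u : ι → F} (hu : Root X u) (hus : sz u = s) : False := by
  classical
  have h2 := B.two
  have hs4 := s_eq_four B hp hF h3 h5 hn hs hmin hu hus
  have one := fun k hk => one_all B hp hF h3 h5 hn hs hmin hu hus (i := k) hk
  have hcard : (Finset.univ.filter (fun k => u k ≠ 0)).card = 4 := by
    rw [← hs4, ← hus]; unfold sz; congr
  obtain ⟨a, b, c, d, hab, hac, had, hbc, hbd, hcd, hT'⟩ := Finset.card_eq_four.1 hcard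
  have hmem : ∀ k, k ∈ (Finset.univ.filter (fun k => u k ≠ 0)) ↔ u k ≠ 0 := by simp
  have ha : u a ≠ 0 := (hmem a).1 (by rw [hT']; simp)
  have hb : u b ≠ 0 := (hmem b).1 (by rw [hT']; simp)
  have hc : u c ≠ 0 := (hmem c).1 (by rw [hT']; simp)
  have hd : u d ≠ 0 := (hmem d).1 (by rw [hT']; simp)
  have hzero : ∀ k, k ≠ a → k ≠ b → k ≠ c → k ≠ d → u k = 0 := by
    intro k h1 h4 h6 h7
    by_contra h
    have := (hmem k).2 h
    rw [hT'] at this
    simp only [Finset.mem_insert, Finset.mem_singleton] at this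
    tauto
  obtain ⟨m, hm⟩ := exists_not_mem ({a, b, c, d} : Finset ι) (lt_of_le_of_lt Finset.card_le_four (by omega))
  obtain ⟨x, hx⟩ := exists_not_mem ({m, a, b, c, d} : Finset ι) (lt_of_le_of_lt Finset.card_le_five (by omega))
  simp only [Finset.mem_insert, Finset.mem_singleton, not_or] at hm hx
  obtain ⟨hma, hmb, hmc, hmd⟩ := hm
  obtain ⟨hxm, hxa, hxb, hxc, hxd⟩ := hx
  have hum := hzero m hma hmb hmc hmd
  have hux := hzero x hxa hxb hxc hxd
  have hr' := B.root_c3 (by omega) (Ne.symm hmd) (Ne.symm hxd) (Ne.symm hxm) hu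
  obtain ⟨u', hu'⟩ : ∃ u', u' = c3 F d m x u := ⟨_, rfl⟩
  rw [← hu'] at hr'
  have hu'e : u' = u - u d • ee F d + u d • ee F m := by
    rw [hu', c3_apply_vec (Ne.symm hmd) (Ne.symm hxd) (Ne.symm hxm), hum, hux]
    module
  have hsz' : sz u' = 4 := by
    rw [hu', c3, sz_pm, hus, hs4]
  have hu'u : 4 * (u' ⬝ᵥ u) = 3 := by
    rw [hu'e]
    simp only [add_dotProduct, sub_dotProduct, smul_dotProduct, ee_dot, hu.1, smul_eq_mul, hum]
    linear_combination -(one d hd)
  have hu'k : ∀ k, k ≠ d → k ≠ m → u' k = u k := by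
    intro k h1 h4
    rw [hu'e]; simp only [Pi.add_apply, Pi.sub_apply, Pi.smul_apply, smul_eq_mul]
    rw [ee_ne h1, ee_ne h4]; ring
  have hu'd : u' d = 0 := by
    rw [hu'e]; simp only [Pi.add_apply, Pi.sub_apply, Pi.smul_apply, smul_eq_mul]
    rw [ee_same, ee_ne (Ne.symm hmd)]; ring
  have hu'm : u' m = u d := by
    rw [hu'e]; simp only [Pi.add_apply, Pi.sub_apply, Pi.smul_apply, smul_eq_mul]
    rw [ee_same, ee_ne hmd, hum]; ring
  have hr := B.root_rf hu hr'
  obtain ⟨v, hv⟩ : ∃ v, v = rf u u' := ⟨_, rfl⟩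
  rw [← hv] at hr
  have e : ∀ k, 2 * v k = 2 * u' k - 3 * u k := by
    intro k; rw [hv, rf_apply hu.1]
    simp only [Pi.sub_apply, Pi.smul_apply, smul_eq_mul]
    linear_combination (-u k) * hu'u
  have va : 2 * v a = - u a := by rw [e, hu'k a had (Ne.symm hma)]; ring
  have vb : 2 * v b = - u b := by rw [e, hu'k b hbd (Ne.symm hmb)]; ring
  have vc : 2 * v c = - u c := by rw [e, hu'k c hcd (Ne.symm hmc)]; ring
  have vd : 2 * v d = - (3 * u d) := by rw [e, hu'd]; ring
  have vm : v m = u d := by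
    apply mul_left_cancel₀ h2
    rw [e, hu'm, hum]; ring
  have va0 : v a ≠ 0 := fun h => ha (by linear_combination va - 2 * h)
  have vb0 : v b ≠ 0 := fun h => hb (by linear_combination vb - 2 * h)
  have vc0 : v c ≠ 0 := fun h => hc (by linear_combination vc - 2 * h)
  have vd0 : v d ≠ 0 := fun h => by
    have : 3 * u d = 0 := by linear_combination vd - 2 * h
    exact hd ((mul_eq_zero.1 this).resolve_left h3)
  have vm0 : v m ≠ 0 := by rw [vm]; exact hd
  have vk0 : ∀ k, k ≠ a → k ≠ b → k ≠ c → k ≠ d → k ≠ m → v k = 0 := by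
    intro k k1 k2 k3 k4 k5
    have := e k
    rw [hu'k k k4 k5, hzero k k1 k2 k3 k4] at this
    have h' : 2 * v k = 0 := by linear_combination this
    exact (mul_eq_zero.1 h').resolve_left h2
  have hA : 16 * v a ^ 2 = 1 := by linear_combination (8 * v a - 4 * u a) * va + one a ha
  have hB : 16 * v b ^ 2 = 1 := by linear_combination (8 * v b - 4 * u b) * vb + one b hb
  have hD : 16 * v d ^ 2 = 9 := by linear_combination (8 * v d - 12 * u d) * vd + 9 * one d hd
  have hM : 4 * v m ^ 2 = 1 := by rw [vm]; exact one d hd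
  have hN : v a ^ 2 + v d ^ 2 ≠ 1 := by
    intro h
    have : (2 : F) * 3 = 0 := by linear_combination hA + hD - 16 * h
    exact mul_ne_zero h2 h3 this
  rcases B.lemD hp hF hr had va0 vd0 hN rfl with hfull | hnf
  · have hN0 : 1 - v a ^ 2 - v d ^ 2 ≠ 0 := by
      intro h; apply hN; linear_combination -h
    obtain ⟨α, γ, hα, hγ, hcon⟩ := exists_conic h2 h3 h5 hN0
    obtain ⟨w, hw⟩ : ∃ w, w = v - v a • ee F a - v d • ee F d := ⟨_, rfl⟩
    rw [← hw] at hfull
    have hwi : w a = 0 := by
      rw [hw]; simp only [Pi.sub_apply, Pi.smul_apply, smul_eq_mul]; rw [ee_same, ee_ne had]; ring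
    have hwj : w d = 0 := by
      rw [hw]; simp only [Pi.sub_apply, Pi.smul_apply, smul_eq_mul]; rw [ee_same, ee_ne (Ne.symm had)]; ring
    have hwk : ∀ k, k ≠ a → k ≠ d → w k = v k := by
      intro k h1 h4
      rw [hw]; simp only [Pi.sub_apply, Pi.smul_apply, smul_eq_mul]; rw [ee_ne h1, ee_ne h4]; ring
    have hwu : w ⬝ᵥ v = 1 - v a ^ 2 - v d ^ 2 := by
      rw [hw, sub_dotProduct, sub_dotProduct, smul_dotProduct, smul_dotProduct, ee_dot, ee_dot, hr.1]
      simp only [smul_eq_mul]; ring
    have hww : w ⬝ᵥ w = 1 - v a ^ 2 - v d ^ 2 := by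
      have : w ⬝ᵥ w = w ⬝ᵥ v - v a * w a - v d * w d := by
        conv_lhs => rw [hw]
        rw [sub_dotProduct, sub_dotProduct, smul_dotProduct, smul_dotProduct, ee_dot, ee_dot, ← hw,
          dotProduct_comm v w]
        rfl
      rw [this, hwi, hwj, hwu]; ring
    have hz1 : (α • ee F a + γ • w) ⬝ᵥ (α • ee F a + γ • w) = 1 := by
      simp only [add_dotProduct, dotProduct_add, smul_dotProduct, dotProduct_smul, smul_eq_mul, ee_dot, dot_ee,
        hwi, hww, Pi.add_apply, Pi.smul_apply]
      rw [ee_same]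
      linear_combination hcon
    have hrz := hfull _ hz1 ⟨α, 0, γ, by module⟩
    have zk : ∀ k, k ≠ a → (α • ee F a + γ • w) k = γ * w k := by
      intro k hk
      simp only [Pi.add_apply, Pi.smul_apply, smul_eq_mul]; rw [ee_ne hk]; ring
    have za : (α • ee F a + γ • w) a = α := by
      simp only [Pi.add_apply, Pi.smul_apply, smul_eq_mul]; rw [ee_same, hwi]; ring
    have hszz : sz (α • ee F a + γ • w) = s := by
      rw [hs4, ← hsz']
      apply sz_congr
      intro k
      by_cases k1 : k = a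
      · subst k1
        rw [za, hu'k _ had (Ne.symm hma)]
        exact ⟨fun h => absurd h hα, fun h => absurd h ha⟩
      rw [zk k k1]
      by_cases k4 : k = d
      · subst k4; rw [hwj, hu'd, mul_zero]
      rw [hwk k k1 k4]
      by_cases k2 : k = b
      · subst k2
        rw [hu'k _ hbd (Ne.symm hmb)]
        exact ⟨fun h => absurd h (mul_ne_zero hγ vb0), fun h => absurd h hb⟩
      by_cases k3 : k = c
      · subst k3
        rw [hu'k _ hcd (Ne.symm hmc)]
        exact ⟨fun h => absurd h (mul_ne_zero hγ vc0), fun h => absurd h hc⟩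
      by_cases k5 : k = m
      · subst k5
        rw [hu'm]
        exact ⟨fun h => absurd h (mul_ne_zero hγ vm0), fun h => absurd h hd⟩
      · rw [vk0 k k1 k2 k3 k4 k5, hu'k k k4 k5, hzero k k1 k2 k3 k4, mul_zero]
    have o1 := one_all B hp hF h3 h5 hn hs hmin hrz hszz (i := b) (by
      rw [zk b (Ne.symm hab), hwk b (Ne.symm hab) hbd]; exact mul_ne_zero hγ vb0)
    have o2 := one_all B hp hF h3 h5 hn hs hmin hrz hszz (i := m) (by
      rw [zk m hma, hwk m hma hmd]; exact mul_ne_zero hγ vm0)
    rw [zk b (Ne.symm hab), hwk b (Ne.symm hab) hbd] at o1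
    rw [zk m hma, hwk m hma hmd] at o2
    apply h3
    linear_combination 4 * o2 - 4 * o1 + γ ^ 2 * hB - 4 * γ ^ 2 * hM + 3 * (γ ^ 2 * hM) - 3 * o2
  · have c1 := hnf v (ee F a) hr (B.root_ee a) ⟨v a, v d, 1, by module⟩ ⟨1, 0, 0, by module⟩
    have c2 := hnf v (ee F d) hr (B.root_ee d) ⟨v a, v d, 1, by module⟩ ⟨0, 1, 0, by module⟩
    rw [dot_ee] at c1 c2
    have h7 : (7 : F) = 0 := by
      rcases c1 with h | h | h | h | h | h
      · exfalso; apply vd0; rw [← h, ee_ne (Ne.symm had)]
      · exfalso; apply vd0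
        have := congrFun h d
        rw [ee_ne (Ne.symm had), Pi.neg_apply] at this
        exact neg_eq_zero.1 this.symm
      · exfalso; exact one_ne_zero (α := F) (by linear_combination 4 * h - hA)
      · exfalso; apply h3; linear_combination hA - 4 * h
      · linear_combination hA - 4 * h
      · exfalso; apply h5
        have e4 : 4 * (4 * v a ^ 2) = 1 := by linear_combination hA
        linear_combination 16 * h - (4 * (4 * v a ^ 2) + 1 - 12) * e4
    have h11 : (11 : F) = 0 := by
      rcases c2 with h | h | h | h | h | h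
      · exfalso; apply va0; rw [← h, ee_ne had]
      · exfalso; apply va0
        have := congrFun h a
        rw [ee_ne had, Pi.neg_apply] at this
        exact neg_eq_zero.1 this.symm
      · exfalso; exact mul_ne_zero h3 h3 (by linear_combination -hD + 4 * h)
      · exfalso; apply h5; linear_combination -hD + 4 * h
      · exfalso; exact one_ne_zero (α := F) (by linear_combination -hD + 4 * h)
      · have e4 : 4 * (4 * v d ^ 2) = 9 := by linear_combination hD
        linear_combination -16 * h + (4 * (4 * v d ^ 2) + 9 - 12) * e4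
    exact mul_ne_zero h2 h2 (by linear_combination h11 - h7)

end Min

end Cfsg.Agent.H928
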