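import Cfsg.Agent.H928.FrameM

/-!
# Orthogonal frames XIII: roots with three non-zero coordinates, `p ≥ 7`
-/

set_option autoImplicit false
set_option linter.unusedSectionVars false
set_option linter.unusedSimpArgs false
set_option linter.unusedVariables false

namespace Cfsg.Agent.H928

open Matrix

variable {ι : Type*} [Fintype ι] [DecidableEq ι] {F : Type*} [Field F]
variable {X : Subgroup ((ι → F) ≃ₗ[F] (ι → F))}

/-- moving a root with three coordinates -/
theorem Base.root_move3 (B : Base X) (hn : 5 ≤ Fintype.card ι) {i j k i' j' k' : ι} (hij : i ≠ j) (hik : i ≠ k)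
    (hjk : j ≠ k) (hij' : i' ≠ j') (hik' : i' ≠ k') (hjk' : j' ≠ k') {u v : ι → F} (hu : Root X u)
    (hz : ∀ l, l ≠ i → l ≠ j → l ≠ k → u l = 0) (hz' : ∀ l, l ≠ i' → l ≠ j' → l ≠ k' → v l = 0)
    (h1 : v i' ^ 2 = u i ^ 2) (h2 : v j' ^ 2 = u j ^ 2) (h3 : v k' ^ 2 = u k ^ 2) : Root X v := by
  obtain ⟨σ, s1, s2, s3⟩ := exists_perm_three hij hik hjk hij' hik' hjk'
  obtain ⟨m, hm⟩ := exists_not_mem ({i, j, k} : Finset ι) (lt_of_le_of_lt Finset.card_le_three (by omega))
  obtain ⟨n, hn'⟩ := exists_not_mem ({m, i, j, k} : Finset ι) (lt_of_le_of_lt Finset.card_le_four (by omega))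
  simp only [Finset.mem_insert, Finset.mem_singleton, not_or] at hm hn'
  refine B.root_move (by omega) σ hu (m := m) (n := n) (Ne.symm hn'.1) (hz m hm.1 hm.2.1 hm.2.2)
    (hz n hn'.2.1 hn'.2.2.1 hn'.2.2.2) ?_
  intro l
  by_cases l1 : l = i
  · subst l1; rw [s1]; exact sq_eq_sq_iff_eq_or_eq_neg.1 h1
  by_cases l2 : l = j
  · subst l2; rw [s2]; exact sq_eq_sq_iff_eq_or_eq_neg.1 h2
  by_cases l3 : l = k
  · subst l3; rw [s3]; exact sq_eq_sq_iff_eq_or_eq_neg.1 h3
  left
  rw [hz l l1 l2 l3]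
  apply hz'
  · rw [← s1]; exact fun h => l1 (σ.injective h)
  · rw [← s2]; exact fun h => l2 (σ.injective h)
  · rw [← s3]; exact fun h => l3 (σ.injective h)

theorem supp3_dot {i j k : ι} (hij : i ≠ j) (hik : i ≠ k) (hjk : j ≠ k) {u : ι → F}
    (hz : ∀ l, l ≠ i → l ≠ j → l ≠ k → u l = 0) (v : ι → F) :
    u ⬝ᵥ v = u i * v i + u j * v j + u k * v k := by
  have e : u = u i • ee F i + u j • ee F j + u k • ee F k := by
    funext l
    simp only [Pi.add_apply, Pi.smul_apply, smul_eq_mul]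
    by_cases l1 : l = i
    · subst l1; rw [ee_same, ee_ne hij, ee_ne hik]; ring
    by_cases l2 : l = j
    · subst l2; rw [ee_same, ee_ne l1, ee_ne hjk]; ring
    by_cases l3 : l = k
    · subst l3; rw [ee_same, ee_ne l1, ee_ne l2]; ring
    rw [hz l l1 l2 l3, ee_ne l1, ee_ne l2, ee_ne l3]; ring
  conv_lhs => rw [e]
  simp only [add_dotProduct, smul_dotProduct, ee_dot, smul_eq_mul]

/-- `p = 7` -/
theorem Base.seven (B : Base X) [Fintype F] (h7 : Fintype.card F = 7) (hn : 5 ≤ Fintype.card ι) {i j k : ι}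
    (hij : i ≠ j) (hik : i ≠ k)
    (hjk : j ≠ k) {u : ι → F} (hu : Root X u) (hz : ∀ l, l ≠ i → l ≠ j → l ≠ k → u l = 0)
    (hi : u i ^ 2 = 2) (hj : u j ^ 2 = 2) (hk : u k ^ 2 = 4) : AllRoots X {i, j, k} := by
  have z7 : (7 : F) = 0 := by
    have := FiniteField.cast_card_eq_zero F
    rw [h7] at this
    exact_mod_cast this
  have hc7 : CharP F 7 := (CharP.charP_iff_prime_eq_zero (by norm_num)).2 (by exact_mod_cast z7)
  have hsq : ∀ x : F, ∃ a : ℤ, x ^ 2 = (a : F) ∧ (a = 0 ∨ a = 1 ∨ a = 2 ∨ a = 4) := by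
    intro x
    have h := FiniteField.pow_card x
    rw [h7] at h
    have h' : x * ((x ^ 2 - 1) * ((x ^ 2 - 2) * (x ^ 2 - 4))) = 0 := by
      linear_combination h - (x ^ 5 - 2 * x ^ 3 + x) * z7 + (2 * x - 1 * x ) * z7 * 0
    rcases mul_eq_zero.1 h' with h' | h'
    · exact ⟨0, by rw [h']; norm_num, by norm_num⟩
    rcases mul_eq_zero.1 h' with h' | h'
    · exact ⟨1, by push_cast; linear_combination h', by norm_num⟩
    rcases mul_eq_zero.1 h' with h' | h'
    · exact ⟨2, by push_cast; linear_combination h', by norm_num⟩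
    · exact ⟨4, by push_cast; linear_combination h', by norm_num⟩
  -- the root with coordinates of square `4, 4, 0`
  obtain ⟨y, hy⟩ : ∃ y, y = rf u (ee F k) := ⟨_, rfl⟩
  have ry : Root X y := by rw [hy]; exact B.root_rf hu (B.root_ee k)
  rw [rf_apply hu.1, ee_dot] at hy
  have yv : ∀ l, y l = ee F k l - 2 * u k * u l := by
    intro l; rw [hy]; rfl
  have yz : ∀ l, l ≠ i → l ≠ j → l ≠ k → y l = 0 := by
    intro l l1 l2 l3
    rw [yv, ee_ne l3, hz l l1 l2 l3]; ring
  have yi : y i ^ 2 = 4 := by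
    rw [yv, ee_ne hik]
    linear_combination 4 * u k ^ 2 * hi + 8 * hk + 4 * z7
  have yj : y j ^ 2 = 4 := by
    rw [yv, ee_ne hjk]
    linear_combination 4 * u k ^ 2 * hj + 8 * hk + 4 * z7
  have yk : y k ^ 2 = 0 := by
    rw [yv, ee_same]
    linear_combination (4 * u k ^ 2 + 12) * hk + 7 * z7
  intro z hzz hz1
  have zz : ∀ l, l ≠ i → l ≠ j → l ≠ k → z l = 0 := by
    intro l l1 l2 l3
    exact hzz l (by simp [l1, l2, l3])
  rw [supp3_dot hij hik hjk zz] at hz1
  obtain ⟨a, ha, ha'⟩ := hsq (z i)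
  obtain ⟨b, hb, hb'⟩ := hsq (z j)
  obtain ⟨c, hc, hc'⟩ := hsq (z k)
  have hd : (7 : ℤ) ∣ a + b + c - 1 := by
    apply (CharP.intCast_eq_zero_iff F 7 _).1
    push_cast
    rw [← ha, ← hb, ← hc]
    linear_combination hz1
  have eiz : ∀ l, l ≠ i → l ≠ j → l ≠ k → (ee F i : ι → F) l = 0 := fun l l1 _ _ => ee_ne l1
  have ei : (ee F i : ι → F) i ^ 2 = 1 := by rw [ee_same]; ring
  have ej : (ee F i : ι → F) j ^ 2 = 0 := by rw [ee_ne (Ne.symm hij)]; ring
  have ek : (ee F i : ι → F) k ^ 2 = 0 := by rw [ee_ne (Ne.symm hik)]; ring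
  have cases : (a = 1 ∧ b = 0 ∧ c = 0) ∨ (a = 0 ∧ b = 1 ∧ c = 0) ∨ (a = 0 ∧ b = 0 ∧ c = 1) ∨
      (a = 4 ∧ b = 4 ∧ c = 0) ∨ (a = 4 ∧ b = 0 ∧ c = 4) ∨ (a = 0 ∧ b = 4 ∧ c = 4) ∨
      (a = 2 ∧ b = 2 ∧ c = 4) ∨ (a = 2 ∧ b = 4 ∧ c = 2) ∨ (a = 4 ∧ b = 2 ∧ c = 2) := by
    clear ha hb hc
    rcases ha' with rfl | rfl | rfl | rfl <;> rcases hb' with rfl | rfl | rfl | rfl <;>
      rcases hc' with rfl | rfl | rfl | rfl <;> first | (exfalso; omega) | decide
  rcases cases with ⟨rfl, rfl, rfl⟩ | ⟨rfl, rfl, rfl⟩ | ⟨rfl, rfl, rfl⟩ | ⟨rfl, rfl, rfl⟩ | ⟨rfl, rfl, rfl⟩ |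
    ⟨rfl, rfl, rfl⟩ | ⟨rfl, rfl, rfl⟩ | ⟨rfl, rfl, rfl⟩ | ⟨rfl, rfl, rfl⟩ <;> push_cast at ha hb hc
  · exact B.root_move3 hn hij hik hjk hij hik hjk (B.root_ee i) eiz zz (by rw [ha, ei]) (by rw [hb, ej]) (by rw [hc, ek])
  · exact B.root_move3 hn hij hik hjk (Ne.symm hij) hjk hik (B.root_ee i) eiz (fun l a b c => zz l b a c)
      (by rw [hb, ei]) (by rw [ha, ej]) (by rw [hc, ek])
  · exact B.root_move3 hn hij hik hjk (Ne.symm hjk) (Ne.symm hik) (Ne.symm hij) (B.root_ee i) eiz
      (fun l a b c => zz l c b a)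
      (by rw [hc, ei]) (by rw [hb, ej]) (by rw [ha, ek])
  · exact B.root_move3 hn hij hik hjk hij hik hjk ry yz zz (by rw [ha, yi]) (by rw [hb, yj]) (by rw [hc, yk])
  · exact B.root_move3 hn hij hik hjk hik hij (Ne.symm hjk) ry yz (fun l a b c => zz l a c b)
      (by rw [ha, yi]) (by rw [hc, yj]) (by rw [hb, yk])
  · exact B.root_move3 hn hij hik hjk (Ne.symm hjk) (Ne.symm hik) (Ne.symm hij) ry yz
      (fun l a b c => zz l c b a)
      (by rw [hc, yi]) (by rw [hb, yj]) (by rw [ha, yk])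
  · exact B.root_move3 hn hij hik hjk hij hik hjk hu hz zz (by rw [ha, hi]) (by rw [hb, hj]) (by rw [hc, hk])
  · exact B.root_move3 hn hij hik hjk hik hij (Ne.symm hjk) hu hz (fun l a b c => zz l a c b)
      (by rw [ha, hi]) (by rw [hc, hj]) (by rw [hb, hk])
  · exact B.root_move3 hn hij hik hjk (Ne.symm hjk) (Ne.symm hik) (Ne.symm hij) hu hz
      (fun l a b c => zz l c b a)
      (by rw [hc, hi]) (by rw [hb, hj]) (by rw [ha, hk])

/-- the values of a coordinate -/
theorem three_values {A α : F} (h2 : (2 : F) ≠ 0) (h3 : (3 : F) ≠ 0) (h5 : (5 : F) ≠ 0) (hA0 : A ≠ 0)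
    (h1 : A = 0 ∨ A = 1 ∨ A = 2 ∨ A ^ 2 - 3 * A + 1 = 0)
    (h2' : A ^ 2 = 0 ∨ A ^ 2 = 4 ∨ A ^ 2 = 8 ∨ (A ^ 2) ^ 2 - 12 * A ^ 2 + 16 = 0) :
    (A = 1 ∧ (7 : F) = 0) ∨ A = 2 ∨ ((11 : F) = 0 ∧ (A = 5 ∨ A = 9)) := by
  have h15 : (1 : F) ≠ 0 := one_ne_zero
  rcases h1 with h | h | h | h
  · exact absurd h hA0
  · subst h
    rcases h2' with h | h | h | h
    · exfalso; apply h15; linear_combination h
    · exfalso; apply h3; linear_combination -h
    · left; exact ⟨rfl, by linear_combination -h⟩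
    · exfalso; apply h5; linear_combination h
  · right; left; exact h
  · right; right
    have h11 : (11 : F) = 0 := by
      rcases h2' with h' | h' | h' | h'
      · exact absurd (pow_eq_zero_iff (two_ne_zero) |>.1 h') hA0
      · -- A ^ 2 = 4, 3 A = 5
        have e : 3 * A = 5 := by linear_combination h' - h
        have : (11 : F) = 0 := by linear_combination -9 * h' + (3 * A + 5) * e
        exact this
      · have e : 3 * A = 9 := by linear_combination h' - h
        have e' : A = 3 := by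
          apply mul_left_cancel₀ h3; linear_combination e
        exfalso; apply h15; rw [e'] at h'; linear_combination h'
      · -- A ^ 2 = 3 A - 1
        have e : (A ^ 2) ^ 2 = 21 * A - 8 := by linear_combination (A ^ 2 + 3 * A + 8) * h
        have e' : 5 * (3 * A - 4) = 0 := by linear_combination e - h' - 12 * h
        have e'' : 3 * A = 4 := by linear_combination (mul_eq_zero.1 e').resolve_left h5
        linear_combination -9 * h + (3 * A - 5) * e''
    refine ⟨h11, ?_⟩
    have : (A - 5) * (A - 9) = 0 := by linear_combination h + (4 - A) * h11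
    rcases mul_eq_zero.1 this with h | h
    · left; linear_combination h
    · right; linear_combination h

theorem AllRoots.congr {J J' : Finset ι} (h : J = J') (hJ : AllRoots X J) : AllRoots X J' := h ▸ hJ

set_option maxHeartbeats 2000000 in
/-- roots with exactly three non-zero coordinates -/
theorem Base.three_case (B : Base X) [Fintype F] {p : ℕ} (hp : p.Prime) (hF : Fintype.card F = p)
    (h3 : (3 : F) ≠ 0) (h5 : (5 : F) ≠ 0) (hn : 5 ≤ Fintype.card ι) {u : ι → F} (hu : Root X u) {i j k : ι}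
    (hij : i ≠ j) (hik : i ≠ k) (hjk : j ≠ k) (hi : u i ≠ 0) (hj : u j ≠ 0) (hk : u k ≠ 0)
    (hz : ∀ l, l ≠ i → l ≠ j → l ≠ k → u l = 0) : AllRoots X {i, j, k} := by
  have h2 := B.two
  have hs : u i ^ 2 + u j ^ 2 + u k ^ 2 = 1 := by
    have := hu.1
    rw [supp3_dot hij hik hjk hz] at this
    linear_combination this
  have hN : u i ^ 2 + u j ^ 2 ≠ 1 := by
    intro h
    apply hk
    have : u k ^ 2 = 0 := by linear_combination hs - h
    exact (pow_eq_zero_iff two_ne_zero).1 this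
  have inP : ∀ z : ι → F, (∀ l, l ≠ i → l ≠ j → l ≠ k → z l = 0) →
      InP i j (u - u i • ee F i - u j • ee F j) z := by
    intro z hzz
    refine ⟨z i, z j, z k / u k, ?_⟩
    funext l
    simp only [Pi.add_apply, Pi.sub_apply, Pi.smul_apply, smul_eq_mul]
    by_cases l1 : l = i
    · subst l1; rw [ee_same, ee_ne hij]; ring
    by_cases l2 : l = j
    · subst l2; rw [ee_same, ee_ne l1]; ring
    by_cases l3 : l = k
    · subst l3; rw [ee_ne l1, ee_ne l2]; field_simp; ring
    rw [hzz l l1 l2 l3, hz l l1 l2 l3, ee_ne l1, ee_ne l2]; ring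
  rcases B.lemD hp hF hu hij hi hj hN rfl with hfull | hnf
  · intro z hz' hz1
    exact hfull z hz1 (inP z fun l l1 l2 l3 => hz' l (by simp [l1, l2, l3]))
  have val : ∀ a b c : ι, a ≠ b → a ≠ c → b ≠ c → u a ≠ 0 → u b ≠ 0 → u c ≠ 0 →
      (∀ l, (l ≠ i ∧ l ≠ j ∧ l ≠ k) ↔ (l ≠ a ∧ l ≠ b ∧ l ≠ c)) →
      ((4 * u c ^ 2 = 1 ∧ (7 : F) = 0) ∨ 4 * u c ^ 2 = 2 ∨ ((11 : F) = 0 ∧ (4 * u c ^ 2 = 5 ∨ 4 * u c ^ 2 = 9))) := by
    intro a b c hab hac hbc ha hb hc hl
    have hzabc : ∀ l, l ≠ a → l ≠ b → l ≠ c → u l = 0 := by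
      intro l l1 l2 l3
      obtain ⟨m1, m2, m3⟩ := (hl l).2 ⟨l1, l2, l3⟩
      exact hz l m1 m2 m3
    obtain ⟨v, hv⟩ : ∃ v : ι → F, v = u b • ee F a + (-u a) • ee F b + u c • ee F c := ⟨_, rfl⟩
    obtain ⟨va, vb, vc, v0⟩ := three_apply (F := F) hab hac hbc (u b) (-u a) (u c)
    rw [← hv] at va vb vc v0
    have rv : Root X v := B.root_move3 hn hab hac hbc (Ne.symm hab) hbc hac hu hzabc
      (fun l a b c => v0 l b a c) (by rw [vb]; ring) (by rw [va]) (by rw [vc])
    have c1 := hnf u (ee F c) hu (B.root_ee c) (inP u hz) (inP _ (fun l l1 l2 l3 => ee_ne ((hl l).1 ⟨l1, l2, l3⟩).2.2))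
    have c2 := hnf u v hu rv (inP u hz) (inP _ (fun l l1 l2 l3 => by
      obtain ⟨m1, m2, m3⟩ := (hl l).1 ⟨l1, l2, l3⟩
      exact v0 l m1 m2 m3))
    have uv : u ⬝ᵥ v = u c ^ 2 := by
      rw [supp3_dot hab hac hbc hzabc, va, vb, vc]; ring
    rw [dot_ee] at c1
    rw [uv] at c2
    have hA0 : 4 * u c ^ 2 ≠ 0 := by
      have : (4 : F) * u c ^ 2 = 2 * 2 * (u c ^ 2) := by ring
      rw [this]
      exact mul_ne_zero (mul_ne_zero h2 h2) (pow_ne_zero 2 hc)
    apply three_values (α := 0) h2 h3 h5 hA0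
    · rcases c1 with h | h | h | h | h | h
      · exfalso; apply ha; rw [← h, ee_ne hac]
      · exfalso; apply ha
        have := congrFun h a
        rw [ee_ne hac, Pi.neg_apply] at this
        exact neg_eq_zero.1 this.symm
      · left; exact h
      · right; left; exact h
      · right; right; left; exact h
      · right; right; right; exact h
    · rcases c2 with h | h | h | h | h | h
      · exfalso; apply ha
        have e1 := congrFun h a
        have e2 := congrFun h b
        rw [va] at e1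
        rw [vb] at e2
        have : 2 * u a = 0 := by linear_combination -e1 - e2
        exact (mul_eq_zero.1 this).resolve_left h2
      · exfalso; apply hc
        have e1 := congrFun h c
        rw [vc, Pi.neg_apply] at e1
        have : 2 * u c = 0 := by linear_combination e1
        exact (mul_eq_zero.1 this).resolve_left h2
      · left; linear_combination 4 * h
      · right; left; linear_combination 4 * h
      · right; right; left; linear_combination 4 * h
      · right; right; right; linear_combination 16 * h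
  have vi := val j k i hjk (Ne.symm hij) (Ne.symm hik) hj hk hi (fun l => by tauto)
  have vj := val i k j hik hij (Ne.symm hjk) hi hk hj (fun l => by tauto)
  have vk := val i j k hij hik hjk hi hj hk (fun l => by tauto)
  have hsum : 4 * u i ^ 2 + 4 * u j ^ 2 + 4 * u k ^ 2 = 4 := by linear_combination 4 * hs
  by_cases h7 : (7 : F) = 0
  · have h11 : (11 : F) ≠ 0 := by
      intro h
      apply mul_ne_zero h2 h2
      linear_combination h - h7
    have hp7 : Fintype.card F = 7 := by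
      have hcp : CharP F p := (CharP.charP_iff_prime_eq_zero hp).2 (by
        have := FiniteField.cast_card_eq_zero F
        rwa [hF] at this)
      have hd : p ∣ 7 := (CharP.cast_eq_zero_iff F p 7).1 (by exact_mod_cast h7)
      rw [hF]
      exact (Nat.prime_dvd_prime_iff_eq hp (by norm_num)).1 hd
    have s2 : ∀ x : F, 4 * x ^ 2 = 1 → x ^ 2 = 2 := fun x h => by linear_combination 2 * h - x ^ 2 * h7
    have s4 : ∀ x : F, 4 * x ^ 2 = 2 → x ^ 2 = 4 := fun x h => by linear_combination 2 * h - x ^ 2 * h7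
    have red : ∀ x : F, ((4 * x ^ 2 = 1 ∧ (7 : F) = 0) ∨ 4 * x ^ 2 = 2 ∨
        ((11 : F) = 0 ∧ (4 * x ^ 2 = 5 ∨ 4 * x ^ 2 = 9))) → 4 * x ^ 2 = 1 ∨ 4 * x ^ 2 = 2 := by
      intro x h
      rcases h with h | h | h
      · left; exact h.1
      · right; exact h
      · exact absurd h.1 h11
    have h1 : (1 : F) ≠ 0 := one_ne_zero
    rcases red _ vi with a | a <;> rcases red _ vj with b | b <;> rcases red _ vk with c | c
    · exfalso; apply h1; linear_combination a + b + c - hsum
    · exact B.seven hp7 hn hij hik hjk hu hz (s2 _ a) (s2 _ b) (s4 _ c)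
    · exact (B.seven hp7 hn hik hij (Ne.symm hjk) hu (fun l a b c => hz l a c b) (s2 _ a) (s2 _ c) (s4 _ b)).congr
        (by ext l; simp; tauto)
    · exfalso; apply h1; linear_combination hsum - a - b - c
    · exact (B.seven hp7 hn hjk (Ne.symm hij) (Ne.symm hik) hu (fun l a b c => hz l c a b) (s2 _ b) (s2 _ c)
        (s4 _ a)).congr (by ext l; simp; tauto)
    · exfalso; apply h1; linear_combination hsum - a - b - c
    · exfalso; apply h1; linear_combination hsum - a - b - c
    · exfalso; apply h2; linear_combination hsum - a - b - c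
  · by_cases h11 : (11 : F) = 0
    · exfalso
      have hc11 : CharP F 11 := (CharP.charP_iff_prime_eq_zero (by norm_num)).2 (by exact_mod_cast h11)
      have red : ∀ x : F, ((4 * x ^ 2 = 1 ∧ (7 : F) = 0) ∨ 4 * x ^ 2 = 2 ∨
          ((11 : F) = 0 ∧ (4 * x ^ 2 = 5 ∨ 4 * x ^ 2 = 9))) → ∃ a : ℤ, 4 * x ^ 2 = (a : F) ∧ (a = 2 ∨ a = 5 ∨ a = 9) := by
        intro x h
        rcases h with h | h | ⟨_, h | h⟩
        · exact absurd h.2 h7
        · exact ⟨2, by rw [h]; norm_num, by norm_num⟩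
        · exact ⟨5, by rw [h]; norm_num, by norm_num⟩
        · exact ⟨9, by rw [h]; norm_num, by norm_num⟩
      obtain ⟨a, ha, ha'⟩ := red _ vi
      obtain ⟨b, hb, hb'⟩ := red _ vj
      obtain ⟨c, hc, hc'⟩ := red _ vk
      have hd : (11 : ℤ) ∣ a + b + c - 4 := by
        apply (CharP.intCast_eq_zero_iff F 11 _).1
        push_cast
        rw [← ha, ← hb, ← hc]
        linear_combination hsum
      have hab : a = 5 ∧ b = 5 ∧ c = 5 := by
        clear ha hb hc
        rcases ha' with rfl | rfl | rfl <;> rcases hb' with rfl | rfl | rfl <;>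
          rcases hc' with rfl | rfl | rfl <;> first | (exfalso; omega) | decide
      obtain ⟨rfl, rfl, rfl⟩ := hab
      push_cast at ha hb hc
      have rz := B.root_rf hu (B.root_ee i)
      have zv : ∀ l, rf u (ee F i) l = ee F i l - 2 * u i * u l := by
        intro l
        rw [rf_apply hu.1, ee_dot]
        rfl
      have c1 := hnf _ (ee F j) rz (B.root_ee j) (inP _ (fun l l1 l2 l3 => by
        rw [zv, ee_ne l1, hz l l1 l2 l3]; ring)) (inP _ (fun l l1 l2 l3 => ee_ne l2))
      rw [dot_ee, zv, ee_ne (Ne.symm hij)] at c1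
      have h1 : (1 : F) ≠ 0 := one_ne_zero
      have e0 : 4 * (0 - 2 * u i * u j) ^ 2 = 3 := by
        linear_combination 4 * u j ^ 2 * ha + 5 * hb + 2 * h11
      rcases c1 with h | h | h | h | h | h
      · have e1 := congrFun h i
        rw [zv, ee_ne hij, ee_same] at e1
        apply h3
        linear_combination -ha + 2 * e1
      · have e1 := congrFun h i
        rw [Pi.neg_apply, zv, ee_ne hij, ee_same] at e1
        apply h3
        linear_combination -ha - 2 * e1
      · apply h3; linear_combination h - e0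
      · apply h2; linear_combination h - e0
      · apply h1; linear_combination h - e0
      · rw [e0] at h
        apply h1; linear_combination h
    · exfalso
      have red : ∀ x : F, ((4 * x ^ 2 = 1 ∧ (7 : F) = 0) ∨ 4 * x ^ 2 = 2 ∨
          ((11 : F) = 0 ∧ (4 * x ^ 2 = 5 ∨ 4 * x ^ 2 = 9))) → 4 * x ^ 2 = 2 := by
        intro x h
        rcases h with h | h | h
        · exact absurd h.2 h7
        · exact h
        · exact absurd h.1 h11
      apply h2
      linear_combination hsum - red _ vi - red _ vj - red _ vk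

/-- **the dichotomy for `p ≥ 7`** -/
theorem Base.dich_seven (B : Base X) [Fintype F] {p : ℕ} (hp : p.Prime) (hF : Fintype.card F = p)
    (h3 : (3 : F) ≠ 0) (h5 : (5 : F) ≠ 0) (hn : 7 ≤ Fintype.card ι) :
    (∀ u, Root X u → Supp2 u) ∨ (∀ u : ι → F, u ⬝ᵥ u = 1 → Root X u) := by
  classical
  have hne : Nonempty ι := Fintype.card_pos_iff.1 (by omega)
  by_cases hall : ∀ u, Root X u → Supp2 u
  · exact Or.inl hall
  right
  push Not at hall
  obtain ⟨u0, hu0, hs0⟩ := hall
  have hex : ∃ s, 3 ≤ s ∧ ∃ u, Root X u ∧ sz u = s := by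
    refine ⟨sz u0, ?_, u0, hu0, rfl⟩
    by_contra h
    exact hs0 (supp2_of_sz (by omega) hne)
  obtain ⟨hs3, u, hu, hsu⟩ := Nat.find_spec hex
  have hmin : ∀ v, Root X v → sz v < Nat.find hex → sz v ≤ 2 := by
    intro v hv hlt
    have := Nat.find_min hex hlt
    by_contra h
    exact this ⟨by omega, v, hv, rfl⟩
  rcases Nat.lt_or_ge (Nat.find hex) 4 with h4 | h4
  · have hcard : (Finset.univ.filter (fun k => u k ≠ 0)).card = 3 := by
      have : sz u = 3 := by omega
      rw [← this]; unfold sz; congr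
    obtain ⟨i, j, k, hij, hik, hjk, hT⟩ := Finset.card_eq_three.1 hcard
    have hmem : ∀ k, k ∈ (Finset.univ.filter (fun k => u k ≠ 0)) ↔ u k ≠ 0 := by simp
    have hi : u i ≠ 0 := (hmem i).1 (by rw [hT]; simp)
    have hj : u j ≠ 0 := (hmem j).1 (by rw [hT]; simp)
    have hk : u k ≠ 0 := (hmem k).1 (by rw [hT]; simp)
    have hz : ∀ l, l ≠ i → l ≠ j → l ≠ k → u l = 0 := by
      intro l l1 l2 l3
      by_contra h
      have := (hmem l).2 h
      rw [hT] at this
      simp only [Finset.mem_insert, Finset.mem_singleton] at this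
      tauto
    have hA := B.three_case hp hF h3 h5 (by omega) hu hij hik hjk hi hj hk hz
    have h4' : 4 ≤ Nat.card F := by
      rw [Nat.card_eq_fintype_card, hF]
      have h2 := B.two
      by_contra h
      have : p = 2 ∨ p = 3 := by
        have := hp.two_le
        omega
      have hc := FiniteField.cast_card_eq_zero F
      rw [hF] at hc
      rcases this with rfl | rfl
      · exact h2 (by exact_mod_cast hc)
      · exact h3 (by exact_mod_cast hc)
    intro v hv
    exact B.all_roots_of_three h4' h3 (by omega) (fun i' j' k' h1 h2' h3' =>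
      B.allRoots_triples (by omega) hij hik hjk hA h1 h2' h3') v hv
  · exact (no_min B hp hF h3 h5 hn h4 hmin hu hsu).elim

end Cfsg.Agent.H928
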