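import Cfsg.Agent.H928.FrameN
import Cfsg.Agent.H916.FrameThree
import Cfsg.Agent.H916.FrameFive
import Cfsg.Agent.H916.FrameIV

/-!
# Orthogonal frames XIV: the stabilisers are maximal, `n ≥ 9`
-/

set_option autoImplicit false
set_option linter.unusedSectionVars false
set_option linter.unusedSimpArgs false
set_option linter.unusedVariables false

namespace Cfsg.Agent.H928

open Matrix

/-- **the dichotomy** -/
theorem Base.dichotomy {ι : Type*} [Fintype ι] [DecidableEq ι] {F : Type*} [Field F]
    {X : Subgroup ((ι → F) ≃ₗ[F] (ι → F))} (B : Base X) [Fintype F] (hp : (Fintype.card F).Prime)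
    (hn : 7 ≤ Fintype.card ι) :
    (∀ u, Root X u → Supp2 u) ∨ (∀ u : ι → F, u ⬝ᵥ u = 1 → Root X u) := by
  have hcz := FiniteField.cast_card_eq_zero F
  have hcp : CharP F (Fintype.card F) := (CharP.charP_iff_prime_eq_zero hp).2 hcz
  by_cases h3 : (3 : F) = 0
  · have hd : Fintype.card F ∣ 3 := (CharP.cast_eq_zero_iff F _ 3).1 (by exact_mod_cast h3)
    exact H916.FrameThree.three B ((Nat.prime_dvd_prime_iff_eq hp (by norm_num)).1 hd) (by omega)
  by_cases h5 : (5 : F) = 0
  · have hd : Fintype.card F ∣ 5 := (CharP.cast_eq_zero_iff F _ 5).1 (by exact_mod_cast h5)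
    exact H916.FrameFive.five B ((Nat.prime_dvd_prime_iff_eq hp (by norm_num)).1 hd) hn
  exact B.dich_seven hp rfl h3 h5 hn

/-- **frame stabilisers are maximal** -/
theorem frame_stabilizer_maximal {ι : Type} [Fintype ι] [DecidableEq ι] {F : Type*} [Field F] [Fintype F]
    (hp : (Fintype.card F).Prime) (hodd : Odd (Fintype.card F)) {Q : (ι → F) → F}
    (hQ : Cfsg.Geo.IsNondegenerateQuadraticForm Q)
    (hn : 9 ≤ Fintype.card ι) {t : ℕ}
    {D : Fin t → Submodule F (ι → F)} (hD : Cfsg.Geo.IsOrthogonalMDecomposition Q 1 D) :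
    Cfsg.Geo.IsMaximalIn (Cfsg.Geo.omegaGL Q)
      (Cfsg.Geo.decompositionStabilizer D ⊓ Cfsg.Geo.omegaGL Q) := by
  have hcz := FiniteField.cast_card_eq_zero F
  have hcp : CharP F (Fintype.card F) := (CharP.charP_iff_prime_eq_zero hp).2 hcz
  have h2 : (2 : F) ≠ 0 := by
    intro h
    have hd : Fintype.card F ∣ 2 := (CharP.cast_eq_zero_iff F _ 2).1 (by exact_mod_cast h)
    rw [(Nat.prime_dvd_prime_iff_eq hp (by norm_num)).1 hd] at hodd
    exact absurd hodd (by decide)
  refine H916.FrameIV.frame_maximal hQ h2 (by omega) hD ?_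
  intro ht X B
  have hcard : 9 ≤ Fintype.card (Fin t) := by rw [Fintype.card_fin, ht]; exact hn
  rcases B.dichotomy hp (by omega) with h | h
  · left
    refine mono_of_roots B hcard h ?_
    intro g _
    have : Finite ((Fin t → F) ≃ₗ[F] (Fin t → F)) := Finite.of_injective
      (fun g : (Fin t → F) ≃ₗ[F] (Fin t → F) => (g : (Fin t → F) → (Fin t → F))) DFunLike.coe_injective
    exact isOfFinOrder_of_finite g
  · right
    intro u v hu hv
    have : Nonempty (Fin t) := Fintype.card_pos_iff.1 (by omega)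
    exact B.mul_mem_of_roots (h u hu) (h v hv)

end Cfsg.Agent.H928
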